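import Mathlib

set_option autoImplicit false
set_option linter.unusedSectionVars false
set_option linter.unusedVariables false
set_option linter.unusedTactic false

/-!
The final contradiction in the two-step argument for the 2-length (linear algebra part).
-/

namespace Cfsg.Agent.H49.Gr

variable {q : ℕ} [hq : Fact q.Prime] {M : Type*} [AddCommGroup M] [Module (ZMod q) M] [Finite M]
  {L : Type*} [CommGroup L]

/-- an alternating nondegenerate pairing -/
structure Pair (q : ℕ) (β : M → M → L) : Prop where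
  add1 : ∀ a b c, β (a + b) c = β a c * β b c
  add2 : ∀ a b c, β a (b + c) = β a b * β a c
  alt : ∀ a, β a a = 1
  nd : ∀ a, (∀ b, β a b = 1) → a = 0

namespace Pair

variable {β : M → M → L} (h : Pair q β)

include h

lemma zero_left (c : M) : β 0 c = 1 := by
  have := h.add1 0 0 c
  rw [add_zero] at this
  exact (mul_eq_left.1 this.symm)

lemma zero_right (c : M) : β c 0 = 1 := by
  have := h.add2 c 0 0
  rw [add_zero] at this
  exact (mul_eq_left.1 this.symm)

lemma neg_left (a c : M) : β (-a) c = (β a c)⁻¹ := by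
  have := h.add1 (-a) a c
  rw [neg_add_cancel, h.zero_left] at this
  exact eq_inv_of_mul_eq_one_left this.symm

lemma neg_right (a c : M) : β a (-c) = (β a c)⁻¹ := by
  have := h.add2 a (-c) c
  rw [neg_add_cancel, h.zero_right] at this
  exact eq_inv_of_mul_eq_one_left this.symm

lemma nsmul_left (n : ℕ) (a c : M) : β (n • a) c = (β a c) ^ n := by
  induction n with
  | zero => rw [zero_smul, pow_zero, h.zero_left]
  | succ n ih => rw [succ_nsmul, h.add1, ih, pow_succ]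

lemma nsmul_right (n : ℕ) (a c : M) : β a (n • c) = (β a c) ^ n := by
  induction n with
  | zero => rw [zero_smul, pow_zero, h.zero_right]
  | succ n ih => rw [succ_nsmul, h.add2, ih, pow_succ]

include hq in
lemma smul_right_eq_one {a c : M} (hac : β a c = 1) (s : ZMod q) : β a (s • c) = 1 := by
  obtain ⟨n, rfl⟩ := ZMod.natCast_zmod_surjective s
  rw [Nat.cast_smul_eq_nsmul, h.nsmul_right, hac, one_pow]

lemma pow_q (a c : M) : (β a c) ^ q = 1 := by
  rw [← h.nsmul_left, ← Nat.cast_smul_eq_nsmul (ZMod q), CharP.cast_eq_zero, zero_smul, h.zero_left]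

lemma symm {a c : M} (hac : β a c = 1) : β c a = 1 := by
  have h1 := h.alt (a + c)
  rw [h.add1, h.add2, h.add2, h.alt, h.alt, hac, one_mul, one_mul, mul_one] at h1
  exact h1

include hq in
lemma eq_one_of_sq (hq2 : q ≠ 2) {a c : M} (h2 : β a c = (β a c)⁻¹) : β a c = 1 := by
  have h1 : (β a c) ^ 2 = 1 := by
    rw [pow_two]
    nth_rewrite 2 [h2]
    exact mul_inv_cancel _
  have h3 : orderOf (β a c) ∣ 2 := orderOf_dvd_of_pow_eq_one h1
  have h4 : orderOf (β a c) ∣ q := orderOf_dvd_of_pow_eq_one (h.pow_q a c)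
  have h5 : orderOf (β a c) ∣ Nat.gcd 2 q := Nat.dvd_gcd h3 h4
  rw [(Nat.coprime_primes Nat.prime_two hq.out).2 hq2.symm] at h5
  exact orderOf_eq_one_iff.1 (Nat.dvd_one.1 h5)

omit h in
/-- a subgroup of order `q²` is spanned by two independent elements -/
lemma span_two {N : Submodule (ZMod q) M} (hN : Nat.card N = q ^ 2) {a b : M} (ha : a ∈ N) (hb : b ∈ N)
    (ha0 : a ≠ 0) (hind : ∀ s : ZMod q, b ≠ s • a) :
    ∀ n ∈ N, ∃ s t : ZMod q, n = s • a + t • b := by
  let f : ZMod q × ZMod q → N := fun p => ⟨p.1 • a + p.2 • b, N.add_mem (N.smul_mem _ ha) (N.smul_mem _ hb)⟩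
  have hf : Function.Injective f := by
    rintro ⟨s, t⟩ ⟨s', t'⟩ hst
    have h1 : s • a + t • b = s' • a + t' • b := congrArg Subtype.val hst
    have h2 : (t - t') • b = (s' - s) • a := by
      rw [sub_smul, sub_smul, sub_eq_sub_iff_add_eq_add, add_comm (t • b), h1]
    have h3 : t = t' := by
      by_contra hne
      have hne' : t - t' ≠ 0 := sub_ne_zero.2 hne
      apply hind ((t - t')⁻¹ * (s' - s))
      rw [mul_smul, ← h2, smul_smul, inv_mul_cancel₀ hne', one_smul]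
    subst h3
    rw [sub_self, zero_smul] at h2
    have h4 : s' - s = 0 := by
      rcases smul_eq_zero.1 h2.symm with h5 | h5
      · exact h5
      · exact absurd h5 ha0
    rw [sub_eq_zero] at h4
    rw [h4]
  have hbij := hf.bijective_of_nat_card_le (by
    rw [hN, Nat.card_prod, Nat.card_zmod, pow_two])
  intro n hn
  obtain ⟨⟨s, t⟩, hst⟩ := hbij.2 ⟨n, hn⟩
  exact ⟨s, t, (congrArg Subtype.val hst).symm⟩

include hq in
lemma perp_of_span {N : Submodule (ZMod q) M} (hN : Nat.card N = q ^ 2) {a b : M} (ha : a ∈ N) (hb : b ∈ N)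
    (ha0 : a ≠ 0) (hind : ∀ s : ZMod q, b ≠ s • a) (hab : β a b = 1) : ∀ n ∈ N, β a n = 1 := by
  intro n hn
  obtain ⟨s, t, rfl⟩ := span_two hN ha hb ha0 hind n hn
  rw [h.add2, h.smul_right_eq_one (h.alt a), h.smul_right_eq_one hab, one_mul]

end Pair

section main

variable {β : M → M → L} {𝒢 : Type*} [Group 𝒢] (ρ : 𝒢 →* Module.End (ZMod q) M)

/-- the `-1`-eigenspace -/
def Mm (y : 𝒢) : Submodule (ZMod q) M := LinearMap.ker (ρ y + 1)
/-- the `1`-eigenspace -/
def Mp (y : 𝒢) : Submodule (ZMod q) M := LinearMap.ker (ρ y - 1)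

variable {ρ}

omit [Finite M] in
lemma mem_Mm {y : 𝒢} {m : M} : m ∈ Mm ρ y ↔ ρ y m = -m := by
  rw [Mm, LinearMap.mem_ker, LinearMap.add_apply, Module.End.one_apply, add_eq_zero_iff_eq_neg]

omit [Finite M] in
lemma mem_Mp {y : 𝒢} {m : M} : m ∈ Mp ρ y ↔ ρ y m = m := by
  rw [Mp, LinearMap.mem_ker, LinearMap.sub_apply, Module.End.one_apply, sub_eq_zero]

omit [Finite M] in
lemma rmul (g k : 𝒢) (m : M) : ρ (g * k) m = ρ g (ρ k m) := by
  rw [map_mul]; rfl

omit [Finite M] in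
lemma rone (m : M) : ρ 1 m = m := by rw [map_one]; rfl

lemma two_ne (hq2 : q ≠ 2) : (2 : ZMod q) ≠ 0 := by
  intro h0
  have h1 : ((2 : ℕ) : ZMod q) = 0 := by exact_mod_cast h0
  rw [ZMod.natCast_eq_zero_iff] at h1
  exact hq2 ((Nat.prime_dvd_prime_iff_eq hq.out Nat.prime_two).1 h1)

omit [Finite M] in
lemma eq_zero_of_neg (hq2 : q ≠ 2) {m : M} (hm : m = -m) : m = 0 := by
  have h1 : (2 : ZMod q) • m = 0 := by
    rw [two_smul]
    nth_rewrite 2 [hm]
    exact add_neg_cancel m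
  exact (smul_eq_zero.1 h1).resolve_left (two_ne hq2)

omit [Finite M] in
/-- decomposition with respect to an involution -/
lemma decomp (hq2 : q ≠ 2) {y : 𝒢} (hy : y * y = 1) (m : M) :
    ∃ a b : M, m = a + b ∧ ρ y a = -a ∧ ρ y b = b ∧
      (∃ t : ZMod q, a = t • (m - ρ y m)) ∧ (∃ t : ZMod q, b = t • (m + ρ y m)) := by
  have hyy : ρ y (ρ y m) = m := by rw [← rmul, hy, rone]
  refine ⟨(2 : ZMod q)⁻¹ • (m - ρ y m), (2 : ZMod q)⁻¹ • (m + ρ y m), ?_, ?_, ?_, ⟨_, rfl⟩, ⟨_, rfl⟩⟩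
  · rw [← smul_add]
    have : m - ρ y m + (m + ρ y m) = (2 : ZMod q) • m := by rw [two_smul]; abel
    rw [this, smul_smul, inv_mul_cancel₀ (two_ne hq2), one_smul]
  · rw [map_smul, map_sub, hyy, ← smul_neg, neg_sub]
  · rw [map_smul, map_add, hyy, add_comm]

variable (hβ : Pair q β) (hinv : ∀ (g : 𝒢) a b, β (ρ g a) (ρ g b) = β a b)

include hβ hinv in
lemma perp_pm (hq2 : q ≠ 2) {y : 𝒢} {a b : M} (ha : ρ y a = -a) (hb : ρ y b = b) : β a b = 1 := by
  apply hβ.eq_one_of_sq hq2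
  conv_lhs => rw [← hinv y a b, ha, hb, hβ.neg_left]

include hβ hinv in
/-- Fact 1 -/
lemma dichotomy (hq2 : q ≠ 2) {y y' : 𝒢} (hy : y * y = 1) (hy' : y' * y' = 1) (hcomm : ∀ m, ρ y (ρ y' m) = ρ y' (ρ y m))
    (hN : Nat.card (Mm ρ y') = q ^ 2) : (∀ m, ρ y' m = -m → ρ y m = m) ∨ (∀ m, ρ y' m = -m → ρ y m = -m) := by
  by_contra hcon
  push Not at hcon
  obtain ⟨⟨m, hm, hm'⟩, ⟨n, hn, hn'⟩⟩ := hcon
  have hyN : ∀ u ∈ Mm ρ y', ρ y u ∈ Mm ρ y' := by
    intro u hu
    rw [mem_Mm] at hu ⊢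
    rw [← hcomm, hu, map_neg]
  obtain ⟨a, a', rfl, ha, ha', ⟨t, hat⟩, -⟩ := decomp (ρ := ρ) hq2 hy m
  obtain ⟨b', b, rfl, hb', hb, -, ⟨s, hbs⟩⟩ := decomp (ρ := ρ) hq2 hy n
  have haN : a ∈ Mm ρ y' := by
    rw [hat]
    exact Submodule.smul_mem _ _ (Submodule.sub_mem _ (mem_Mm.2 hm) (hyN _ (mem_Mm.2 hm)))
  have hbN : b ∈ Mm ρ y' := by
    rw [hbs]
    exact Submodule.smul_mem _ _ (Submodule.add_mem _ (mem_Mm.2 hn) (hyN _ (mem_Mm.2 hn)))
  have ha0 : a ≠ 0 := by
    rintro rfl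
    apply hm'
    rw [zero_add, ha']
  have hb0 : b ≠ 0 := by
    rintro rfl
    apply hn'
    rw [add_zero, hb']
  have hind : ∀ r : ZMod q, b ≠ r • a := by
    intro r hr
    apply hb0
    apply eq_zero_of_neg hq2
    calc b = ρ y b := hb.symm
      _ = r • ρ y a := by rw [hr, map_smul]
      _ = -b := by rw [ha, smul_neg, ← hr]
  have h1 := hβ.perp_of_span hN haN hbN ha0 hind (perp_pm hβ hinv hq2 ha hb)
  apply ha0
  apply hβ.nd
  intro u
  obtain ⟨u₁, u₂, rfl, hu₁, hu₂, -, -⟩ := decomp (ρ := ρ) hq2 hy' u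
  rw [hβ.add2, h1 u₁ (mem_Mm.2 hu₁), perp_pm hβ hinv hq2 (mem_Mm.1 haN) hu₂, one_mul]

/-- **The final contradiction.** -/
theorem coreE (hβ : Pair q β) (hinv : ∀ (g : 𝒢) a b, β (ρ g a) (ρ g b) = β a b) (hq2 : q ≠ 2)
    {x y : 𝒢} {k : ℕ} (hy : y = x ^ (2 * k)) (hxc : x ^ (4 * k) = 1)
    (hD1 : ∀ m, ρ y m = m → ρ x m = m) (hD2 : Nat.card (Mm ρ y) = q ^ 2)
    {B F : Subgroup 𝒢} (hFB : F ≤ B) (hF2 : ∀ z ∈ F, z * z = 1) (hFc : ∀ z ∈ F, ∀ b ∈ B, z * b = b * z)
    (hFx : ∀ z ∈ F, x * z * x⁻¹ ∈ F) (hsq : ∀ b ∈ B, b * b ∈ F) (hBx : ∀ b ∈ B, x * b * x⁻¹ ∈ B)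
    {ν : 𝒢} (hν : ν ∈ B) (h1 : (x * ν) ^ (4 * k) = 1) {z₀ : 𝒢} (hz₀ : z₀ ∈ F)
    (h2 : (x * (y * ν * y⁻¹ * ν⁻¹ * z₀)) ^ (4 * k) = 1) :
    ∀ m, ρ y (ρ ν m) = ρ ν (ρ y m) := by
  have hyy : y * y = 1 := by rw [hy, ← pow_add, ← hxc]; congr 1; ring
  have hyinv : y⁻¹ = y := inv_eq_of_mul_eq_one_right hyy
  have hxk : ∀ (j : ℕ) (S : Subgroup 𝒢), (∀ b ∈ S, x * b * x⁻¹ ∈ S) → ∀ b ∈ S, x ^ j * b * (x ^ j)⁻¹ ∈ S := by
    intro j S hS
    induction j with
    | zero => intro b hb; simpa using hb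
    | succ j ih =>
      intro b hb
      have := hS _ (ih b hb)
      have e : x ^ (j + 1) * b * (x ^ (j + 1))⁻¹ = x * (x ^ j * b * (x ^ j)⁻¹) * x⁻¹ := by
        rw [pow_succ']; group
      rw [e]; exact this
  have hFy : ∀ z ∈ F, y * z * y⁻¹ ∈ F := by rw [hy]; exact hxk _ F hFx
  have hBy : ∀ b ∈ B, y * b * y⁻¹ ∈ B := by rw [hy]; exact hxk _ B hBx
  obtain ⟨w, hw, hw0⟩ : ∃ w, ρ y w = -w ∧ w ≠ 0 := by
    by_contra hcon
    push Not at hcon
    have h3 : Mm ρ y = ⊥ := by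
      rw [eq_bot_iff]
      intro m hm
      exact hcon m (mem_Mm.1 hm)
    rw [h3] at hD2
    have h4 : 1 < q ^ 2 := Nat.one_lt_pow (by norm_num) hq.out.one_lt
    rw [← hD2] at h4
    simp at h4
  -- cards of conjugates
  have hcard : ∀ g : 𝒢, Nat.card (Mm ρ (g * y * g⁻¹)) = q ^ 2 := by
    intro g
    rw [← hD2]
    refine Nat.card_congr ⟨fun m => ⟨ρ g⁻¹ m, ?_⟩, fun m => ⟨ρ g m, ?_⟩, ?_, ?_⟩
    · have := mem_Mm.1 m.2
      rw [mem_Mm, ← map_neg, ← this, ← rmul, ← rmul]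
      congr 2; group
    · have := mem_Mm.1 m.2
      rw [mem_Mm, ← rmul, ← map_neg, ← this, ← rmul]
      congr 2; group
    · intro m
      apply Subtype.ext
      change ρ g (ρ g⁻¹ m) = m
      rw [← rmul, mul_inv_cancel, rone]
    · intro m
      apply Subtype.ext
      change ρ g⁻¹ (ρ g m) = m
      rw [← rmul, inv_mul_cancel, rone]
  have hmove : ∀ (g : 𝒢) (m : M), ρ y m = -m → ρ (g * y * g⁻¹) (ρ g m) = -(ρ g m) := by
    intro g m hm
    rw [← map_neg, ← hm, ← rmul, ← rmul]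
    congr 2; group
  have hmovep : ∀ (g : 𝒢) (m : M), ρ y m = m → ρ (g * y * g⁻¹) (ρ g m) = ρ g m := by
    intro g m hm
    conv_rhs => rw [← hm]
    rw [← rmul, ← rmul]
    congr 2; group
  have hconjsq : ∀ g : 𝒢, (g * y * g⁻¹) * (g * y * g⁻¹) = 1 := by
    intro g
    calc (g * y * g⁻¹) * (g * y * g⁻¹) = g * (y * y) * g⁻¹ := by group
      _ = 1 := by rw [hyy]; group
  -- Fact 2
  have fact2 : ∀ z ∈ F, ∀ m, ρ y m = -m → ρ y (ρ z m) = -(ρ z m) := by
    intro z hz
    have hzz := hF2 z hz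
    have hzinv : z⁻¹ = z := inv_eq_of_mul_eq_one_right hzz
    have hzy := hFy z hz
    have hc := hFc z hz _ (hFB hzy)
    -- y commutes with z y z⁻¹
    have hcomm : y * (z * y * z⁻¹) = (z * y * z⁻¹) * y := by
      rw [hzinv]
      have e1 : y * (z * y * z) = (y * z * y⁻¹) * z := by rw [hyinv]; group
      have e2 : z * y * z * y = z * (y * z * y⁻¹) := by rw [hyinv]; group
      rw [e1, e2, hc]
    have hd := dichotomy hβ hinv hq2 (ρ := ρ) hyy (hconjsq z) (fun m => by rw [← rmul, hcomm, rmul]) (hcard z)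
    rcases hd with hd | hd
    · exfalso
      -- x acts trivially on z M⁻
      have h3 : ∀ m, ρ y m = -m → ρ x (ρ z m) = ρ z m := fun m hm => hD1 _ (hd _ (hmove z m hm))
      have h4 : z * (x * z * x⁻¹) ∈ F := F.mul_mem hz (hFx z hz)
      have h5 := hF2 _ h4
      -- hence x² = 1 on M⁻
      have h6 : ∀ m, ρ y m = -m → ρ x (ρ x m) = m := by
        intro m hm
        have hxm : ρ y (ρ x m) = -(ρ x m) := by
          rw [← rmul, hy, ← pow_succ, pow_succ', rmul, ← hy, hm, map_neg]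
        have e1 : ∀ u, ρ y u = -u → ρ (z * (x * z * x⁻¹)) (ρ z (ρ x u)) = ρ z (ρ x (ρ x u)) := by
          intro u hu
          have hxu : ρ y (ρ x u) = -(ρ x u) := by
            rw [← rmul, hy, ← pow_succ, pow_succ', rmul, ← hy, hu, map_neg]
          have e2 : ρ x⁻¹ (ρ z (ρ x u)) = ρ z (ρ x u) := by
            conv_lhs => rw [← h3 _ hxu]
            rw [← rmul, inv_mul_cancel, rone]
          rw [rmul, rmul, rmul, e2, ← rmul z z, hzz, rone]
        have e3 : ρ (z * (x * z * x⁻¹)) (ρ z m) = ρ z (ρ x m) := by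
          have e2 : ρ x⁻¹ (ρ z m) = ρ z m := by
            conv_lhs => rw [← h3 _ hm]
            rw [← rmul, inv_mul_cancel, rone]
          rw [rmul, rmul, rmul, e2, ← rmul z z, hzz, rone]
        have e4 : ρ (z * (x * z * x⁻¹)) (ρ (z * (x * z * x⁻¹)) (ρ z m)) = ρ z m := by
          rw [← rmul, h5, rone]
        rw [e3, e1 m hm] at e4
        have e5 := congrArg (ρ z) e4
        rwa [← rmul z z, ← rmul z z, hzz, rone, rone] at e5
      have h7 : ∀ j : ℕ, ρ (x ^ (2 * j)) w = w := by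
        intro j
        induction j with
        | zero => rw [mul_zero, pow_zero, rone]
        | succ j ih =>
          rw [show 2 * (j + 1) = 2 * j + 1 + 1 by ring, pow_succ, pow_succ, rmul, rmul, h6 w hw, ih]
      have h8 := h7 k
      rw [← hy, hw] at h8
      exact hw0 (eq_zero_of_neg hq2 h8.symm)
    · intro m hm
      exact hd _ (hmove z m hm)
  -- Fact 3
  have fact3 : ∀ z ∈ F, ∃ s : ZMod q, s * s = 1 ∧ (s = 1 ∨ s = -1) ∧ ∀ m, ρ y m = -m → ρ z m = s • m := by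
    intro z hz
    have hzz := hF2 z hz
    have hzM := fact2 z hz
    by_cases hA : ∀ m, ρ y m = -m → ρ z m = m
    · exact ⟨1, one_mul 1, Or.inl rfl, fun m hm => by rw [hA m hm, one_smul]⟩
    by_cases hB : ∀ m, ρ y m = -m → ρ z m = -m
    · exact ⟨-1, by ring, Or.inr rfl, fun m hm => by rw [hB m hm, neg_smul, one_smul]⟩
    exfalso
    push Not at hA hB
    obtain ⟨m, hm, hm'⟩ := hA
    obtain ⟨n, hn, hn'⟩ := hB
    have hzN : ∀ u ∈ Mm ρ y, ρ z u ∈ Mm ρ y := fun u hu => mem_Mm.2 (hzM u (mem_Mm.1 hu))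
    obtain ⟨a, a', rfl, ha, ha', ⟨t, hat⟩, -⟩ := decomp (ρ := ρ) hq2 hzz m
    obtain ⟨b', b, rfl, hb', hb, -, ⟨s, hbs⟩⟩ := decomp (ρ := ρ) hq2 hzz n
    have haN : a ∈ Mm ρ y := by
      rw [hat]
      exact Submodule.smul_mem _ _ (Submodule.sub_mem _ (mem_Mm.2 hm) (hzN _ (mem_Mm.2 hm)))
    have hbN : b ∈ Mm ρ y := by
      rw [hbs]
      exact Submodule.smul_mem _ _ (Submodule.add_mem _ (mem_Mm.2 hn) (hzN _ (mem_Mm.2 hn)))
    have ha0 : a ≠ 0 := by
      rintro rfl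
      apply hm'
      rw [zero_add, ha']
    have hb0 : b ≠ 0 := by
      rintro rfl
      apply hn'
      rw [add_zero, hb']
    have hind : ∀ r : ZMod q, b ≠ r • a := by
      intro r hr
      apply hb0
      apply eq_zero_of_neg hq2
      calc b = ρ z b := hb.symm
        _ = r • ρ z a := by rw [hr, map_smul]
        _ = -b := by rw [ha, smul_neg, ← hr]
    have h1 := hβ.perp_of_span hD2 haN hbN ha0 hind (perp_pm hβ hinv hq2 ha hb)
    apply ha0
    apply hβ.nd
    intro u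
    obtain ⟨u₁, u₂, rfl, hu₁, hu₂, -, -⟩ := decomp (ρ := ρ) hq2 hyy u
    rw [hβ.add2, h1 u₁ (mem_Mm.2 hu₁), perp_pm hβ hinv hq2 (mem_Mm.1 haN) hu₂, one_mul]
  -- the order argument
  have hxM : ∀ m, ρ y m = -m → ρ y (ρ x m) = -(ρ x m) := by
    intro m hm
    rw [← rmul, hy, ← pow_succ, pow_succ', rmul, ← hy, hm, map_neg]
  have cyc : ∀ (γ : 𝒢) (s : ZMod q), s * s = 1 → γ ^ (4 * k) = 1 →
      (∀ m, ρ y m = -m → ρ (γ * γ) m = s • ρ x m) → False := by
    intro γ s hs hγ hm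
    have h3 : ∀ (i : ℕ) (m : M), ρ y m = -m → ρ ((γ * γ) ^ i) m = s ^ i • ρ (x ^ i) m := by
      intro i
      induction i with
      | zero => intro m _; rw [pow_zero, pow_zero, pow_zero, one_smul]
      | succ i ih =>
        intro m hm'
        rw [pow_succ, rmul, hm m hm', map_smul, ih _ (hxM m hm'), smul_smul, pow_succ, pow_succ x, rmul, mul_comm s]
    have h4 := h3 (2 * k) w hw
    have e1 : (γ * γ) ^ (2 * k) = 1 := by
      rw [← pow_two, ← pow_mul, ← hγ]; congr 1; ring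
    have e2 : s ^ (2 * k) = 1 := by rw [pow_mul, pow_two, hs, one_pow]
    rw [e1, e2, ← hy, hw, rone, one_smul] at h4
    exact hw0 (eq_zero_of_neg hq2 h4)
  set y' := ν * y * ν⁻¹ with hy'
  set u := y * ν * y⁻¹ * ν⁻¹ with hu
  have huy : u = y * y' := by rw [hu, hy', hyinv]; group
  have huB : u ∈ B := B.mul_mem (hBy ν hν) (B.inv_mem hν)
  have hy'y' : y' * y' = 1 := hconjsq ν
  have hfF : u * u ∈ F := hsq u huB
  have huinv : y * u * y⁻¹ = u⁻¹ := by
    rw [huy, hyinv, mul_inv_rev, hyinv, inv_eq_of_mul_eq_one_right hy'y', ← mul_assoc, hyy, one_mul]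
  have hfy : y * (u * u) * y⁻¹ = u * u := by
    have e1 : y * (u * u) * y⁻¹ = (y * u * y⁻¹) * (y * u * y⁻¹) := by group
    rw [e1, huinv, ← mul_inv_rev]
    exact inv_eq_of_mul_eq_one_right (hF2 _ hfF)
  have hfy2 : ∀ m, ρ (u * u) (ρ y m) = ρ y (ρ (u * u) m) := by
    intro m
    rw [← rmul, ← rmul]
    congr 2
    conv_lhs => rw [← hfy]
    group
  clear_value u
  obtain ⟨s, hss, hs1, hfs⟩ := fact3 _ hfF
  have hff := hF2 _ hfF
  rcases hs1 with rfl | rfl
  · -- u² = 1 on M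
    simp only [one_smul] at hfs
    have hf1 : ∀ m, ρ (u * u) m = m := by
      intro m
      obtain ⟨a, a', rfl, ha, ha', -, -⟩ := decomp (ρ := ρ) hq2 hff m
      have ha0 : a = 0 := by
        have hya : ρ y a = a := by
          obtain ⟨b, b', hbb, hb, hb', ⟨t, hbt⟩, -⟩ := decomp (ρ := ρ) hq2 hyy a
          have h3 : ρ (u * u) b = -b := by
            rw [hbt, map_smul, map_sub, hfy2, ha, map_neg, ← smul_neg]
            congr 1; abel
          have h4 : b = 0 := by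
            apply eq_zero_of_neg hq2
            rw [← h3, hfs b hb]
          rw [hbb, h4, zero_add, hb']
        have hya' : ρ y' a = a := by
          obtain ⟨b, b', hbb, hb, hb', ⟨t, hbt⟩, -⟩ := decomp (ρ := ρ) hq2 hy'y' a
          have hfy' : ∀ m, ρ (u * u) (ρ y' m) = ρ y' (ρ (u * u) m) := by
            intro m
            rw [← rmul, ← rmul]
            congr 2
            rw [hy']
            have e1 := hFc _ hfF ν hν
            have e2 := hFc _ hfF _ (B.inv_mem hν)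
            have e3 : u * u * y = y * (u * u) := by
              conv_lhs => rw [← hfy]
              group
            calc u * u * (ν * y * ν⁻¹) = (u * u * ν) * y * ν⁻¹ := by group
              _ = ν * (u * u * y) * ν⁻¹ := by rw [e1]; group
              _ = ν * y * (u * u * ν⁻¹) := by rw [e3]; group
              _ = ν * y * ν⁻¹ * (u * u) := by rw [e2]; group
          have h3 : ρ (u * u) b = -b := by
            rw [hbt, map_smul, map_sub, hfy', ha, map_neg, ← smul_neg]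
            congr 1; abel
          have h5 : ρ y (ρ ν⁻¹ b) = -(ρ ν⁻¹ b) := by
            rw [← map_neg, ← hb, ← rmul, ← rmul, hy']
            congr 2; group
          have h6 := hfs _ h5
          rw [← rmul, hFc _ hfF _ (B.inv_mem hν), rmul, h3] at h6
          have h7 := congrArg (ρ ν) h6
          rw [← rmul, ← rmul, mul_inv_cancel, rone, rone] at h7
          have h4 : b = 0 := eq_zero_of_neg hq2 h7.symm
          rw [hbb, h4, zero_add, hb']
        apply eq_zero_of_neg hq2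
        rw [← ha, rmul, huy]
        rw [rmul y y' a, hya', hya, rmul y y' a, hya', hya]
      rw [ha0, zero_add, ha']
    have hcomm : ∀ m, ρ y (ρ y' m) = ρ y' (ρ y m) := by
      intro m
      have h3 := hf1 (ρ y' (ρ y m))
      rw [rmul, huy, rmul y y' (ρ y' (ρ y m)), ← rmul y' y', hy'y', rone, ← rmul y y, hyy, rone, rmul] at h3
      exact h3
    rcases dichotomy hβ hinv hq2 (ρ := ρ) hyy hy'y' hcomm (hcard ν) with hd | hd
    · exfalso
      obtain ⟨s', hs's', -, hs'⟩ := fact3 _ (hsq ν hν)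
      apply cyc (x * ν) s' hs's' h1
      intro m hm
      have e1 : ρ x (ρ ν m) = ρ ν m := hD1 _ (hd _ (hmove ν m hm))
      rw [rmul, rmul x ν m, e1, rmul x ν, ← rmul ν ν, hs' m hm, map_smul]
    · have hle : ∀ m, ρ y m = -m → ρ y' m = -m := by
        intro m hm
        have h3 : (Mm ρ y' : Set M) = Mm ρ y := by
          refine Set.eq_of_subset_of_ncard_le ?_ ?_ (Set.toFinite _)
          · intro a ha; exact mem_Mm.2 (hd a (mem_Mm.1 ha))
          · rw [← Nat.card_coe_set_eq, ← Nat.card_coe_set_eq]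
            exact (hD2.trans (hcard ν).symm).le
        have h4 : m ∈ (Mm ρ y' : Set M) := by rw [h3]; exact mem_Mm.2 hm
        exact mem_Mm.1 h4
      intro m
      obtain ⟨a, b, rfl, ha, hb, -, -⟩ := decomp (ρ := ρ) hq2 hyy m
      rw [map_add, map_add, map_add, map_add, ha, hb, map_neg, hd _ (hmove ν a ha)]
      congr 1
      obtain ⟨c, d, hcd, hc, hd', ⟨t, hct⟩, -⟩ := decomp (ρ := ρ) hq2 hyy (ρ ν b)
      have h3 : ρ y' c = c := by
        rw [hct, map_smul, map_sub, ← hcomm, hmovep ν b hb]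
      have h4 : c = 0 := by
        apply eq_zero_of_neg hq2
        rw [← hle c hc, h3]
      rw [hcd, h4, zero_add, hd']
  · -- u² = -1 on M⁻
    exfalso
    simp only [neg_smul, one_smul] at hfs
    obtain ⟨s', hs's', -, hs'⟩ := fact3 _ hz₀
    apply cyc (x * (u * z₀)) (-1) (by ring) h2
    intro m hm
    have e0 : ρ y (ρ u m) = ρ u m := by
      have e1 : y * u = u * (u * u)⁻¹ * y := by
        have : y * u = (y * u * y⁻¹) * y := by group
        rw [this, huinv]; group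
      rw [← rmul, e1, rmul, rmul, hm, inv_eq_of_mul_eq_one_right hff, map_neg, hfs m hm, neg_neg]
    have e1 : ρ x (ρ u m) = ρ u m := hD1 _ e0
    have e2 : ρ (x * (u * z₀)) m = s' • ρ u m := by
      rw [rmul, rmul, hs' m hm, map_smul, map_smul, e1]
    have e3 : ρ (x * (u * z₀)) (ρ u m) = -(s' • ρ x m) := by
      have e4 : x * (u * z₀) * u = x * (u * u) * z₀ := by
        rw [mul_assoc, mul_assoc u z₀ u, hFc z₀ hz₀ u huB]; group
      rw [← rmul, e4, rmul, hs' m hm, map_smul, rmul, hfs m hm, map_neg, smul_neg]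
    rw [rmul, e2, map_smul, e3, smul_neg, smul_smul, hs's', one_smul, neg_smul, one_smul]

end main

end Cfsg.Agent.H49.Gr
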