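import Mathlib
import Cfsg.Agent.HH.CritP

set_option autoImplicit false
set_option linter.style.haveILetI false

/-!
The tensor product argument in the exceptional case of the Hall–Higman theorem (characteristic 2).
-/

namespace Cfsg.Agent.H49.Gr

open Module
open scoped BigOperators

variable {K : Type*} [Field K] [CharP K 2]

lemma sum_pairs {M : Type*} [AddCommMonoid M] (f : ℕ → M) (m : ℕ) :
    ∑ i ∈ Finset.range (2 * m), f i = ∑ e ∈ Finset.range m, (f (2 * e) + f (2 * e + 1)) := by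
  induction m with
  | zero => simp
  | succ m ih =>
    rw [show 2 * (m + 1) = 2 * m + 1 + 1 by ring, Finset.sum_range_succ, Finset.sum_range_succ, ih,
      Finset.sum_range_succ, add_assoc]

/-- `∑ i Tⁱ = T (T - 1)^(N - 2)` in characteristic 2. -/
lemma sum_smul_pow {V : Type*} [AddCommGroup V] [Module K V] [Nontrivial V] (T : Module.End K V) {r : ℕ} (hr : 1 ≤ r) :
    ∑ i ∈ Finset.range (2 ^ r), (i : K) • T ^ i = T * (T - 1) ^ (2 ^ r - 2) := by
  haveI : CharP (Module.End K V) 2 :=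
    charP_of_injective_algebraMap (FaithfulSMul.algebraMap_injective K (Module.End K V)) 2
  obtain ⟨s, rfl⟩ : ∃ s, r = s + 1 := ⟨r - 1, by omega⟩
  rw [pow_succ', sum_pairs]
  have h1 : ∀ e ∈ Finset.range (2 ^ s), ((2 * e : ℕ) : K) • T ^ (2 * e) + ((2 * e + 1 : ℕ) : K) • T ^ (2 * e + 1) =
      T * (T ^ 2) ^ e := by
    intro e _
    have h2 : ((2 * e : ℕ) : K) = 0 := by
      rw [CharP.cast_eq_zero_iff K 2]; exact ⟨e, rfl⟩
    rw [Nat.cast_add, h2, zero_smul, zero_add, zero_add, Nat.cast_one, one_smul, pow_succ', pow_mul]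
  rw [Finset.sum_congr rfl h1, ← Finset.mul_sum, HH.geom_eq_pow]
  have h3 : T ^ 2 - 1 = (T - 1) ^ 2 := by
    have := sub_pow_char_of_commute 2 (Commute.one_right T)
    rw [this, one_pow]
  rw [h3, ← pow_mul]
  congr 2
  have : 1 ≤ 2 ^ s := Nat.one_le_two_pow
  omega

/-- **The tensor argument.** -/
theorem hom_step {U₀ V : Type*} [AddCommGroup U₀] [Module K U₀] [AddCommGroup V] [Module K V]
    [FiniteDimensional K U₀] [FiniteDimensional K V] [Nontrivial U₀]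
    (A A' : Module.End K U₀) (hAA' : A * A' = 1) (hA'A : A' * A = 1) (T : Module.End K V) {r : ℕ} (hr : 1 ≤ r)
    (hA : A ^ 2 ^ r = 1) (hT : T ^ 2 ^ r = 1)
    (S : Submodule K (U₀ →ₗ[K] V)) (hS : ∀ φ ∈ S, T ∘ₗ φ ∘ₗ A' ∈ S)
    (hinj : ∀ φ ∈ S, φ ≠ 0 → Function.Injective φ)
    (hsum : ∀ φ ∈ S, ∀ u, ∑ i ∈ Finset.range (2 ^ r), (T ^ i) (φ u) = 0)
    (hA1 : (A - 1) ^ (2 ^ r - 1) = 0) (hA0 : (A - 1) ^ (2 ^ r - 2) ≠ 0) :
    ∀ φ ∈ S, T ∘ₗ φ ∘ₗ A' = φ := by
  classical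
  by_cases hSbot : S = ⊥
  · intro φ hφ
    rw [hSbot, Submodule.mem_bot] at hφ
    rw [hφ]; simp
  have hWnt : Nontrivial (U₀ →ₗ[K] V) := by
    obtain ⟨φ, -, hφ⟩ := (Submodule.ne_bot_iff _).1 hSbot
    exact ⟨φ, 0, hφ⟩
  haveI : CharP (Module.End K (U₀ →ₗ[K] V)) 2 :=
    charP_of_injective_algebraMap (FaithfulSMul.algebraMap_injective K (Module.End K (U₀ →ₗ[K] V))) 2
  haveI : CharP (Module.End K U₀) 2 :=
    charP_of_injective_algebraMap (FaithfulSMul.algebraMap_injective K (Module.End K U₀)) 2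
  let X : Module.End K (U₀ →ₗ[K] V) :=
    { toFun := fun φ => T ∘ₗ φ ∘ₗ A'
      map_add' := fun a b => by ext u; simp
      map_smul' := fun c a => by ext u; simp }
  have hX : ∀ φ u, X φ u = T (φ (A' u)) := fun _ _ => rfl
  have hXi : ∀ (i : ℕ) φ u, (X ^ i) φ ((A ^ i) u) = (T ^ i) (φ u) := by
    intro i
    induction i with
    | zero => intro φ u; rfl
    | succ i ih =>
      intro φ u
      rw [pow_succ', Module.End.mul_apply, hX, pow_succ' A, Module.End.mul_apply]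
      have : A' (A ((A ^ i) u)) = (A ^ i) u := by
        rw [← Module.End.mul_apply, hA'A]; rfl
      rw [this, ih, pow_succ', Module.End.mul_apply]
  have hXn : X ^ 2 ^ r = 1 := by
    apply LinearMap.ext; intro φ
    apply LinearMap.ext; intro u
    have := hXi (2 ^ r) φ u
    rw [hA, hT] at this
    exact this
  have hnil : (X - 1) ^ 2 ^ r = 0 := by
    rw [sub_pow_char_pow_of_commute _ _ (Commute.one_right _), one_pow, hXn, sub_self]
  have hXS : ∀ φ ∈ S, (X - 1) φ ∈ S := fun φ hφ => S.sub_mem (hS φ hφ) hφ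
  have hXSi : ∀ (i : ℕ), ∀ φ ∈ S, ((X - 1) ^ i) φ ∈ S := by
    intro i
    induction i with
    | zero => intro φ hφ; exact hφ
    | succ i ih => intro φ hφ; rw [pow_succ', Module.End.mul_apply]; exact hXS _ (ih φ hφ)
  intro φ₁ hφ₁
  by_contra hne
  have h1 : (X - 1) φ₁ ≠ 0 := by
    intro h0
    apply hne
    have : X φ₁ - φ₁ = 0 := h0
    exact sub_eq_zero.1 this
  obtain ⟨k, hk, hkmin⟩ : ∃ k : ℕ, ((X - 1) ^ k : Module.End K (U₀ →ₗ[K] V)) φ₁ = 0 ∧
      ∀ j < k, ((X - 1) ^ j : Module.End K (U₀ →ₗ[K] V)) φ₁ ≠ 0 := by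
    have hex : ∃ k : ℕ, ((X - 1) ^ k : Module.End K (U₀ →ₗ[K] V)) φ₁ = 0 := ⟨2 ^ r, by rw [hnil]; rfl⟩
    exact ⟨Nat.find hex, Nat.find_spec hex, fun j hj => Nat.find_min hex hj⟩
  have hk2 : 2 ≤ k := by
    by_contra hcon
    have : k = 0 ∨ k = 1 := by omega
    rcases this with rfl | rfl
    · rw [pow_zero] at hk
      apply h1
      rw [show φ₁ = 0 from hk, map_zero]
    · rw [pow_one] at hk; exact h1 hk
  obtain ⟨l, rfl⟩ : ∃ l, k = l + 2 := ⟨k - 2, by omega⟩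
  set φ := ((X - 1) ^ l) φ₁ with hφdef
  set φ₀ := (X - 1) φ with hφ₀def
  have hφS : φ ∈ S := hXSi l φ₁ hφ₁
  have hφ₀S : φ₀ ∈ S := hXS φ hφS
  have hφ₀ne : φ₀ ≠ 0 := by
    rw [hφ₀def, hφdef, ← Module.End.mul_apply, ← pow_succ']
    exact hkmin _ (by omega)
  have hφ₀X : (X - 1) φ₀ = 0 := by
    rw [pow_succ', pow_succ'] at hk
    exact hk
  have hXφ₀ : X φ₀ = φ₀ := sub_eq_zero.1 (show X φ₀ - φ₀ = 0 from hφ₀X)
  have hXφ : X φ = φ + φ₀ := by
    have : φ₀ = X φ - φ := rfl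
    rw [this]; abel
  have hXiφ : ∀ i : ℕ, (X ^ i) φ = φ + (i : K) • φ₀ := by
    intro i
    induction i with
    | zero => simp
    | succ i ih =>
      rw [pow_succ', Module.End.mul_apply, ih, map_add, map_smul, hXφ₀, hXφ, Nat.cast_succ, add_smul, one_smul]
      abel
  have hz : ∀ u, φ₀ ((∑ i ∈ Finset.range (2 ^ r), (i : K) • A ^ i) u) = 0 := by
    intro u
    have h2 := hsum φ hφS u
    have h3 : ∀ i ∈ Finset.range (2 ^ r), (T ^ i) (φ u) = φ ((A ^ i) u) + φ₀ (((i : K) • A ^ i) u) := by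
      intro i _
      rw [← hXi, hXiφ, LinearMap.add_apply, LinearMap.smul_apply, LinearMap.smul_apply, map_smul]
    rw [Finset.sum_congr rfl h3, Finset.sum_add_distrib] at h2
    have h4 : ∑ i ∈ Finset.range (2 ^ r), φ ((A ^ i) u) = 0 := by
      rw [← map_sum, ← LinearMap.sum_apply, HH.geom_eq_pow, hA1]; simp
    rw [h4, zero_add, ← map_sum, ← LinearMap.sum_apply] at h2
    exact h2
  have hz2 : ∑ i ∈ Finset.range (2 ^ r), (i : K) • A ^ i = 0 := by
    apply LinearMap.ext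
    intro u
    exact hinj φ₀ hφ₀S hφ₀ne ((hz u).trans (map_zero φ₀).symm)
  rw [sum_smul_pow A hr] at hz2
  apply hA0
  calc (A - 1) ^ (2 ^ r - 2) = (A' * A) * (A - 1) ^ (2 ^ r - 2) := by rw [hA'A, one_mul]
    _ = 0 := by rw [mul_assoc, hz2, mul_zero]

end Cfsg.Agent.H49.Gr
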