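import Mathlib
import Cfsg.Agent.H49.Gr.E
import Cfsg.Agent.H49.Gr.Hom
import Cfsg.Agent.HH.ThmB
import Cfsg.Agent.HH.Ext
import Cfsg.Agent.BG3.Section

set_option autoImplicit false
set_option linter.style.haveILetI false
set_option linter.unusedSectionVars false
set_option linter.unusedVariables false

/-!
The structure of the exceptional action on a homogeneous component.
-/

namespace Cfsg.Agent.H49.Gr

open Module Subgroup
open scoped BigOperators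

universe u

variable {K : Type*} [Field K] [IsAlgClosed K] [CharP K 2] {V : Type*} [AddCommGroup V] [Module K V]
  [FiniteDimensional K V] {G : Type u} [Group G] [Finite G] {ρ : Representation K G V}
  {q : ℕ} [hq : Fact q.Prime] {Q R Y : Subgroup G} {hYQ : Y ≤ normalizer (Q : Set G)}
  {M : Type*} [AddCommGroup M] [Module (ZMod q) M] (S : BG3.SecMod q Q R Y hYQ M) {β : M → M → Kˣ}

/-- a component on which `Q` acts with centre `R` -/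
structure OnW (ρ : Representation K G V) (S : BG3.SecMod q Q R Y hYQ M) (β : M → M → Kˣ) (W : Submodule K V) :
    Prop where
  ne : W ≠ ⊥
  invQ : ∀ g ∈ Q, ∀ w ∈ W, ρ g w ∈ W
  scal : ∀ g ∈ R, ∃ c : K, ∀ w ∈ W, ρ g w = c • w
  pair : Pair q β
  inv : ∀ (g : Y) a b, β (S.ρ g a) (S.ρ g b) = β a b
  comm : ∀ g h : Q, ∀ w ∈ W, ρ ((g : G) * h * (g : G)⁻¹ * (h : G)⁻¹) w =
    (β (S.π g).toAdd (S.π h).toAdd : K) • w

/-- preimage of a submodule -/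
def pre (S : BG3.SecMod q Q R Y hYQ M) (N : Submodule (ZMod q) M) : Subgroup G where
  carrier := {g | ∃ h : g ∈ Q, (S.π ⟨g, h⟩).toAdd ∈ N}
  one_mem' := ⟨Q.one_mem, by
    have : (⟨1, Q.one_mem⟩ : Q) = 1 := rfl
    rw [this, map_one]; exact N.zero_mem⟩
  mul_mem' := by
    rintro a b ⟨ha, ha'⟩ ⟨hb, hb'⟩
    refine ⟨Q.mul_mem ha hb, ?_⟩
    have : (⟨a * b, Q.mul_mem ha hb⟩ : Q) = ⟨a, ha⟩ * ⟨b, hb⟩ := rfl
    rw [this, map_mul]
    exact N.add_mem ha' hb'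
  inv_mem' := by
    rintro a ⟨ha, ha'⟩
    refine ⟨Q.inv_mem ha, ?_⟩
    have : (⟨a⁻¹, Q.inv_mem ha⟩ : Q) = ⟨a, ha⟩⁻¹ := rfl
    rw [this, map_inv]
    exact N.neg_mem ha'

theorem mem_pre {N : Submodule (ZMod q) M} {g : G} : g ∈ pre S N ↔ ∃ h : g ∈ Q, (S.π ⟨g, h⟩).toAdd ∈ N := Iff.rfl

theorem pre_le (N : Submodule (ZMod q) M) : pre S N ≤ Q := fun _ h => h.1

theorem pi_conj (a : Y) {g : G} (hg : g ∈ Q) (hg' : (a : G) * g * (a : G)⁻¹ ∈ Q) :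
    (S.π ⟨(a : G) * g * (a : G)⁻¹, hg'⟩).toAdd = S.ρ a (S.π ⟨g, hg⟩).toAdd := S.equiv a ⟨g, hg⟩

theorem pi_eq_zero {g : G} (hg : g ∈ Q) : (S.π ⟨g, hg⟩).toAdd = 0 ↔ g ∈ R := by
  rw [← S.ker ⟨g, hg⟩]
  exact Iff.rfl

theorem pi_mul {g h : G} (hg : g ∈ Q) (hh : h ∈ Q) (hgh : g * h ∈ Q) :
    (S.π ⟨g * h, hgh⟩).toAdd = (S.π ⟨g, hg⟩).toAdd + (S.π ⟨h, hh⟩).toAdd := by
  have : (⟨g * h, hgh⟩ : Q) = ⟨g, hg⟩ * ⟨h, hh⟩ := rfl
  rw [this, map_mul]; rfl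

theorem pi_inv {g : G} (hg : g ∈ Q) (hg' : g⁻¹ ∈ Q) :
    (S.π ⟨g⁻¹, hg'⟩).toAdd = -(S.π ⟨g, hg⟩).toAdd := by
  have : (⟨g⁻¹, hg'⟩ : Q) = ⟨g, hg⟩⁻¹ := rfl
  rw [this, map_inv]; rfl

include hYQ in
theorem conj_mem (a : Y) {g : G} (hg : g ∈ Q) : (a : G) * g * (a : G)⁻¹ ∈ Q :=
  (mem_normalizer_iff.1 (hYQ a.2) g).1 hg

theorem conj_mem_pre (a : Y) {N : Submodule (ZMod q) M} (hN : ∀ m ∈ N, S.ρ a m ∈ N) {g : G} (hg : g ∈ pre S N) :
    (a : G) * g * (a : G)⁻¹ ∈ pre S N := by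
  obtain ⟨h1, h2⟩ := hg
  refine ⟨conj_mem (hYQ := hYQ) a h1, ?_⟩
  rw [pi_conj S a h1]
  exact hN _ h2

theorem exists_lift (m : M) : ∃ (g : G) (hg : g ∈ Q), (S.π ⟨g, hg⟩).toAdd = m := by
  obtain ⟨g, hg⟩ := S.exists_rep m
  exact ⟨g, g.2, hg⟩

/-- `2^r - 1 = q^e` forces `e = 1` -/
theorem mersenne {q e r : ℕ} (hq : q.Prime) (hq2 : q ≠ 2) (he : 1 ≤ e) (h : q ^ e + 1 = 2 ^ r) : e = 1 := by
  have hodd : Odd q := hq.odd_of_ne_two hq2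
  have hq3 : 3 ≤ q := by
    have := hq.two_le
    omega
  have hr2 : 2 ≤ r := by
    by_contra hcon
    have h1 : r = 0 ∨ r = 1 := by omega
    have h2 : 3 ≤ q ^ e := by
      calc 3 ≤ q := hq3
        _ = q ^ 1 := (pow_one q).symm
        _ ≤ q ^ e := Nat.pow_le_pow_right hq.pos he
    rcases h1 with rfl | rfl <;> omega
  have h4 : 4 ∣ 2 ^ r := by
    obtain ⟨s, rfl⟩ : ∃ s, r = s + 2 := ⟨r - 2, by omega⟩
    exact ⟨2 ^ s, by ring⟩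
  have heo : Odd e := by
    rw [← Nat.not_even_iff_odd]
    rintro ⟨f, rfl⟩
    have h5 : q ^ (f + f) = (q ^ f) * (q ^ f) := by rw [pow_add]
    obtain ⟨a, ha⟩ := hodd.pow (n := f)
    rw [h5, ha] at h
    rw [← h] at h4
    obtain ⟨b, hb⟩ := h4
    have : 4 * (a * a + a) + 2 = 4 * b := by rw [← hb]; ring
    omega
  -- q + 1 divides 2^r
  have h5 : q + 1 ∣ q ^ e + 1 := by
    have := Odd.nat_add_dvd_pow_add_pow q 1 heo
    rwa [one_pow] at this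
  rw [h] at h5
  obtain ⟨s, hs, hqs⟩ := (Nat.dvd_prime_pow Nat.prime_two).1 h5
  by_contra hne
  have he3 : 3 ≤ e := by
    obtain ⟨a, ha⟩ := heo
    omega
  -- q^e = (2^s - 1)^e ≡ -1 + e 2^s mod 2^(s+1)... use parity of the cofactor
  have hs2 : 2 ≤ s := by
    by_contra hcon
    have : s = 0 ∨ s = 1 := by omega
    rcases this with rfl | rfl <;> omega
  have hsr : s < r := by
    by_contra hcon
    have h6 : r ≤ s := by omega
    have h7 : 2 ^ r ≤ 2 ^ s := Nat.pow_le_pow_right (by norm_num) h6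
    have h8 : q ^ 2 ≤ q ^ e := Nat.pow_le_pow_right hq.pos (by omega)
    have : q ^ 2 ≤ q := by omega
    nlinarith
  have h9 : 2 ^ (s + 1) ∣ 2 ^ r := pow_dvd_pow 2 (by omega)
  -- modulo 2^(s+1): q^2 = 1
  have h10 : (2 ^ (s + 1) : ℤ) ∣ (q : ℤ) ^ 2 - 1 := by
    have h11 : (q : ℤ) = 2 ^ s - 1 := by
      have : (q : ℤ) + 1 = 2 ^ s := by exact_mod_cast hqs
      linarith
    rw [h11]
    refine ⟨2 ^ (s - 1) - 1, ?_⟩
    obtain ⟨t, rfl⟩ : ∃ t, s = t + 1 := ⟨s - 1, by omega⟩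
    simp only [Nat.add_sub_cancel]
    ring
  obtain ⟨a, ha⟩ := heo
  have h12 : (2 ^ (s + 1) : ℤ) ∣ (q : ℤ) ^ e - q := by
    have h13 : (q : ℤ) ^ e - q = q * (((q : ℤ) ^ 2) ^ a - 1 ^ a) := by
      rw [ha]; ring
    rw [h13]
    exact (h10.trans (sub_dvd_pow_sub_pow _ _ a)).mul_left _
  have h14 : (2 ^ (s + 1) : ℤ) ∣ (q : ℤ) ^ e + 1 := by
    have : ((q : ℤ) ^ e + 1) = ((2 ^ r : ℕ) : ℤ) := by rw [← h]; push_cast; ring
    rw [this]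
    exact_mod_cast h9
  have h15 : (2 ^ (s + 1) : ℤ) ∣ (q : ℤ) + 1 := by
    have := dvd_sub h14 h12
    have e1 : (q : ℤ) ^ e + 1 - ((q : ℤ) ^ e - q) = q + 1 := by ring
    rwa [e1] at this
  have h16 : 2 ^ (s + 1) ∣ 2 ^ s := by
    rw [← hqs]
    exact_mod_cast h15
  have h17 := Nat.le_of_dvd (by positivity) h16
  have h18 : 2 ^ (s + 1) = 2 * 2 ^ s := by ring
  have h19 : 0 < 2 ^ s := by positivity
  omega

end Cfsg.Agent.H49.Gr
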