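import Mathlib

set_option autoImplicit false
set_option linter.unusedSectionVars false
set_option linter.unusedVariables false

/-!
Powers of `x b` and the two-step configuration.
-/

namespace Cfsg.Agent.H49.Gr

open Subgroup

universe u

variable {H : Type u} [Group H]

/-- `x⁻ᵏ (x b)ᵏ` -/
def Nk (x b : H) (k : ℕ) : H := (x ^ k)⁻¹ * (x * b) ^ k

theorem Nk_zero (x b : H) : Nk x b 0 = 1 := by simp [Nk]

theorem Nk_succ (x b : H) (k : ℕ) : Nk x b (k + 1) = x⁻¹ * Nk x b k * x * b := by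
  unfold Nk
  rw [pow_succ, pow_succ (x * b), mul_inv_rev]
  group

theorem Nk_one_right (x : H) (k : ℕ) : Nk x 1 k = 1 := by
  simp [Nk]

theorem mul_Nk (x b : H) (k : ℕ) : x ^ k * Nk x b k = (x * b) ^ k := by
  unfold Nk
  group

theorem Nk_mem {x : H} {B : Subgroup H} (hB : ∀ b ∈ B, x⁻¹ * b * x ∈ B) {b : H} (hb : b ∈ B) (k : ℕ) : Nk x b k ∈ B := by
  induction k with
  | zero => rw [Nk_zero]; exact B.one_mem
  | succ k ih => rw [Nk_succ]; exact B.mul_mem (hB _ ih) hb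

theorem Nk_mul {x : H} {B F : Subgroup H} (hFB : F ≤ B) (hB : ∀ b ∈ B, x⁻¹ * b * x ∈ B) (hF : ∀ b ∈ F, x⁻¹ * b * x ∈ F)
    (hFc : ∀ z ∈ F, ∀ b ∈ B, z * b = b * z) (hcom : ∀ b ∈ B, ∀ c ∈ B, b * c * b⁻¹ * c⁻¹ ∈ F)
    {b c : H} (hb : b ∈ B) (hc : c ∈ B) (k : ℕ) :
    ∃ z ∈ F, Nk x (b * c) k = Nk x b k * Nk x c k * z := by
  induction k with
  | zero => exact ⟨1, F.one_mem, by simp [Nk_zero]⟩
  | succ k ih =>
    obtain ⟨z, hz, hzk⟩ := ih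
    have h1 : x⁻¹ * z * x ∈ F := hF z hz
    have hM : x⁻¹ * Nk x c k * x ∈ B := hB _ (Nk_mem hB hc k)
    set z' := x⁻¹ * z * x with hz'
    set M := x⁻¹ * Nk x c k * x with hM'
    set N := x⁻¹ * Nk x b k * x with hN'
    set d := b⁻¹ * M⁻¹ * (b⁻¹)⁻¹ * (M⁻¹)⁻¹ with hd
    have hdF : d ∈ F := hcom _ (B.inv_mem hb) _ (B.inv_mem hM)
    refine ⟨z' * d⁻¹, F.mul_mem h1 (F.inv_mem hdF), ?_⟩
    rw [Nk_succ, Nk_succ, Nk_succ, hzk]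
    -- x⁻¹ (N_b N_c z) x b c = N M z' b c
    have e1 : x⁻¹ * (Nk x b k * Nk x c k * z) * x * (b * c) = N * M * (z' * (b * c)) := by
      rw [hN', hM', hz']; group
    have e2 : x⁻¹ * Nk x b k * x * b * (x⁻¹ * Nk x c k * x * c) * (z' * d⁻¹) = N * b * (M * c) * (z' * d⁻¹) := by
      rw [hN', hM']
    have e3 : z' * (b * c) = (b * c) * z' := hFc z' h1 _ (B.mul_mem hb hc)
    have e4 : (c : H) * (z' * d⁻¹) = z' * d⁻¹ * c := ((hFc _ (F.mul_mem h1 (F.inv_mem hdF))) c hc).symm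
    -- M b = b M d⁻¹
    have e5 : M * b = b * M * d⁻¹ := by
      rw [hd]; group
    have e6 : M * z' = z' * M := ((hFc z' h1) M hM).symm
    have e7 : z' * d⁻¹ = d⁻¹ * z' := hFc z' h1 _ (hFB (F.inv_mem hdF))
    have e8 : b * z' = z' * b := ((hFc z' h1) b hb).symm
    rw [e1, e2]
    calc N * M * (z' * (b * c)) = N * ((M * z') * b) * c := by group
      _ = N * (z' * (M * b)) * c := by rw [e6]; group
      _ = N * (z' * (b * M * d⁻¹)) * c := by rw [e5]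
      _ = N * ((z' * b) * M) * d⁻¹ * c := by group
      _ = N * (b * (z' * M)) * d⁻¹ * c := by rw [← e8]; group
      _ = N * b * M * (z' * d⁻¹ * c) := by rw [← e6]; group
      _ = N * b * (M * c) * (z' * d⁻¹) := by rw [← e4]; group

theorem Nk_conj {x y : H} (hxy : y * x = x * y) (b : H) (k : ℕ) : Nk x (y * b * y⁻¹) k = y * Nk x b k * y⁻¹ := by
  have hxy' : x⁻¹ * y = y * x⁻¹ := by
    have : x⁻¹ * y = x⁻¹ * (y * x) * x⁻¹ := by group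
    rw [this, hxy]; group
  have hxy2 : y⁻¹ * x = x * y⁻¹ := by
    have : y⁻¹ * x = y⁻¹ * (x * y) * y⁻¹ := by group
    rw [this, ← hxy]; group
  induction k with
  | zero => simp [Nk_zero]
  | succ k ih =>
    rw [Nk_succ, Nk_succ, ih]
    calc x⁻¹ * (y * Nk x b k * y⁻¹) * x * (y * b * y⁻¹) = (x⁻¹ * y) * Nk x b k * (y⁻¹ * x) * (y * b * y⁻¹) := by group
      _ = y * (x⁻¹ * Nk x b k * x * b) * y⁻¹ := by rw [hxy', hxy2]; group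

theorem Nk_comm {x y : H} {B F : Subgroup H} (hFB : F ≤ B) (hB : ∀ b ∈ B, x⁻¹ * b * x ∈ B) (hF : ∀ b ∈ F, x⁻¹ * b * x ∈ F)
    (hFc : ∀ z ∈ F, ∀ b ∈ B, z * b = b * z) (hcom : ∀ b ∈ B, ∀ c ∈ B, b * c * b⁻¹ * c⁻¹ ∈ F)
    (hxy : y * x = x * y) (hyB : ∀ b ∈ B, y * b * y⁻¹ ∈ B) {b : H} (hb : b ∈ B) (k : ℕ) :
    ∃ z ∈ F, Nk x (y * b * y⁻¹ * b⁻¹) k = y * Nk x b k * y⁻¹ * (Nk x b k)⁻¹ * z := by
  obtain ⟨z₁, hz₁, h1⟩ := Nk_mul hFB hB hF hFc hcom (hyB b hb) (B.inv_mem hb) k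
  obtain ⟨z₂, hz₂, h2⟩ := Nk_mul hFB hB hF hFc hcom hb (B.inv_mem hb) k
  rw [mul_inv_cancel, Nk_one_right] at h2
  have h3 : Nk x b⁻¹ k = (Nk x b k)⁻¹ * z₂⁻¹ := by
    have : Nk x b⁻¹ k = (Nk x b k)⁻¹ * (Nk x b k * Nk x b⁻¹ k * z₂) * z₂⁻¹ := by group
    rw [this, ← h2]; group
  refine ⟨z₂⁻¹ * z₁, F.mul_mem (F.inv_mem hz₂) hz₁, ?_⟩
  rw [h1, h3, Nk_conj hxy]
  group

/-- the two-step configuration -/
structure Cfg (x : H) (n : ℕ) (A B F : Subgroup H) : Prop where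
  x2 : ∃ k, x ^ 2 ^ k = 1
  xA : x ∈ A
  BA : B ≤ A
  AB : A ≤ normalizer (B : Set H)
  FB : F ≤ B
  AF : A ≤ normalizer (F : Set H)
  two : IsPGroup 2 B
  sq1 : ∀ z ∈ F, z * z = 1
  cen : ∀ z ∈ F, ∀ b ∈ B, z * b = b * z
  sq : ∀ b ∈ B, b * b ∈ F
  com : ∀ b ∈ B, ∀ c ∈ B, b * c * b⁻¹ * c⁻¹ ∈ F
  irr : ∀ U ≤ B, A ≤ normalizer (U : Set H) → U = B ∨ U ≤ F
  mov : ∃ b ∈ B, Nk x b (2 ^ (n - 2)) * x ^ 2 ^ (n - 1) * (Nk x b (2 ^ (n - 2)))⁻¹ * (x ^ 2 ^ (n - 1))⁻¹ ∉ F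

end Cfsg.Agent.H49.Gr
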