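import Mathlib
import Cfsg.Agent.H49.Gr.D

set_option autoImplicit false
set_option linter.style.haveILetI false
set_option linter.unusedSectionVars false
set_option linter.unusedVariables false

/-!
The exceptional action on a homogeneous component: Lemma D.
-/

namespace Cfsg.Agent.H49.Gr

open Module Subgroup
open scoped BigOperators

universe u

variable {K : Type*} [Field K] [IsAlgClosed K] [CharP K 2] {V : Type*} [AddCommGroup V] [Module K V]
  [FiniteDimensional K V] {G : Type u} [Group G] [Finite G] {ρ : Representation K G V}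
  {q : ℕ} [hq : Fact q.Prime] {Q R Y : Subgroup G} {hYQ : Y ≤ normalizer (Q : Set G)}
  {M : Type*} [AddCommGroup M] [Module (ZMod q) M] [Finite M] (S : BG3.SecMod q Q R Y hYQ M) {β : M → M → Kˣ}
  {W : Submodule K V}

namespace OnW

variable {S} (h : OnW ρ S β W)

include h

/-- commutators are scalars -/
lemma comm' {g k : G} (hg : g ∈ Q) (hk : k ∈ Q) {w : V} (hw : w ∈ W) :
    ρ g (ρ k w) = (β (S.π ⟨g, hg⟩).toAdd (S.π ⟨k, hk⟩).toAdd : K) • ρ k (ρ g w) := by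
  have h1 := h.comm ⟨g, hg⟩ ⟨k, hk⟩ (ρ k (ρ g w)) (h.invQ _ hk _ (h.invQ _ hg _ hw))
  rw [← h1, ← HH.rho_mul, ← HH.rho_mul, ← HH.rho_mul]
  congr 2
  change g * k = g * k * g⁻¹ * k⁻¹ * k * g
  group

/-- commuting elements -/
lemma comm_of_eq_one {g k : G} (hg : g ∈ Q) (hk : k ∈ Q) (h1 : β (S.π ⟨g, hg⟩).toAdd (S.π ⟨k, hk⟩).toAdd = 1)
    {w : V} (hw : w ∈ W) : ρ g (ρ k w) = ρ k (ρ g w) := by
  rw [h.comm' hg hk hw, h1, Units.val_one, one_smul]

end OnW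

lemma pow_invar {c : G} {U : Submodule K V} (hU : ∀ w ∈ U, ρ c w ∈ U) (m : ℕ) :
    ∀ u ∈ U, ((ρ c - 1) ^ m) u ∈ U := by
  induction m with
  | zero => intro u hu; exact hu
  | succ m ih =>
    intro u hu
    rw [pow_succ', Module.End.mul_apply, LinearMap.sub_apply, Module.End.one_apply]
    exact U.sub_mem (hU _ (ih u hu)) (ih u hu)

lemma smul_eq_self {c : K} {u : V} (hu : u ≠ 0) (h : c • u = u) : c = 1 := by
  have h1 : (c - 1) • u = 0 := by rw [sub_smul, one_smul, h, sub_self]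
  rcases smul_eq_zero.1 h1 with h2 | h2
  · exact sub_eq_zero.1 h2
  · exact absurd h2 hu

/-- **Lemma D** -/
theorem lemmaD (h : OnW ρ S β W) (hQq : IsPGroup q Q) (hq2 : q ≠ 2) {x : Y} {r : ℕ} (hr : 1 ≤ r)
    (hx : orderOf (x : G) = 2 ^ r) (hxW : ∀ w ∈ W, ρ (x : G) w ∈ W)
    (hnil : ∀ w ∈ W, ((ρ (x : G) - 1 : Module.End K V) ^ (2 ^ r - 1)) w = 0) {y : Y} (hy : y = x ^ 2 ^ (r - 1))
    (hynt : ∃ m, S.ρ y m ≠ m) :
    (∀ m, S.ρ y m = m → S.ρ x m = m) ∧ Nat.card (Mm S.ρ y) = q ^ 2 ∧ q + 1 = 2 ^ r := by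
  classical
  have hxr : (x : Y) ^ 2 ^ r = 1 := by
    apply Subtype.ext
    rw [Subgroup.coe_pow, ← hx, pow_orderOf_eq_one]; rfl
  have hxr' : (x : G) ^ 2 ^ r = 1 := by rw [← hx, pow_orderOf_eq_one]
  have hyy : y * y = 1 := by
    rw [hy, ← pow_add, ← two_mul, ← pow_succ', show r - 1 + 1 = r by omega, hxr]
  have hyG : (y : G) = (x : G) ^ 2 ^ (r - 1) := by rw [hy]; rfl
  have hxy : ∀ m, S.ρ x (S.ρ y m) = S.ρ y (S.ρ x m) := by
    intro m
    rw [← rmul, ← rmul, hy, ← pow_succ, ← pow_succ']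
  set N₁ := Mm S.ρ y with hN₁
  set N₂ := Mp S.ρ y with hN₂
  set R₁ := pre S N₁ with hR₁
  set R₂ := pre S N₂ with hR₂
  have hR₁Q : R₁ ≤ Q := pre_le S N₁
  have hR₂Q : R₂ ≤ Q := pre_le S N₂
  have hperp : ∀ a ∈ N₁, ∀ b ∈ N₂, β a b = 1 := fun a ha b hb =>
    perp_pm h.pair h.inv hq2 (mem_Mm.1 ha) (mem_Mp.1 hb)
  have hnd₁ : ∀ a ∈ N₁, (∀ b ∈ N₁, β a b = 1) → a = 0 := by
    intro a ha hb
    apply h.pair.nd
    intro m
    obtain ⟨m₁, m₂, rfl, hm₁, hm₂, -, -⟩ := decomp (ρ := S.ρ) hq2 hyy m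
    rw [h.pair.add2, hb m₁ (mem_Mm.2 hm₁), hperp a ha m₂ (mem_Mp.2 hm₂), one_mul]
  have hnd₂ : ∀ a ∈ N₂, (∀ b ∈ N₂, β a b = 1) → a = 0 := by
    intro a ha hb
    apply h.pair.nd
    intro m
    obtain ⟨m₁, m₂, rfl, hm₁, hm₂, -, -⟩ := decomp (ρ := S.ρ) hq2 hyy m
    rw [h.pair.add2, hb m₂ (mem_Mp.2 hm₂), h.pair.symm (hperp _ (mem_Mm.2 hm₁) a ha), one_mul]
  have hxN₁ : ∀ m ∈ N₁, S.ρ x m ∈ N₁ := by
    intro m hm
    rw [hN₁, mem_Mm] at hm ⊢
    rw [← hxy, hm, map_neg]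
  have hxN₂ : ∀ m ∈ N₂, S.ρ x m ∈ N₂ := by
    intro m hm
    rw [hN₂, mem_Mp] at hm ⊢
    rw [← hxy, hm]
  have hzinv : ∀ (N : Submodule (ZMod q) M), (∀ m ∈ N, S.ρ x m ∈ N) → ∀ m ∈ N, S.ρ x⁻¹ m ∈ N := by
    intro N hN m hm
    have h1 : x⁻¹ = x ^ (2 ^ r - 1) := by
      rw [inv_eq_iff_mul_eq_one, ← pow_succ', Nat.sub_add_cancel Nat.one_le_two_pow, hxr]
    rw [h1]
    generalize 2 ^ r - 1 = j
    induction j with
    | zero => rw [pow_zero, rone]; exact hm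
    | succ j ih => rw [pow_succ', rmul]; exact hN _ ih
  have hxR : ∀ (N : Submodule (ZMod q) M), (∀ m ∈ N, S.ρ x m ∈ N) → ∀ c ∈ zpowers (x : G), ∀ g ∈ pre S N,
      c * g * c⁻¹ ∈ pre S N := by
    intro N hN c hc
    obtain ⟨k, hk⟩ := (Submonoid.mem_powers_iff c (x : G)).1
      ((isOfFinOrder_of_finite (x : G)).mem_powers_iff_mem_zpowers.2 hc)
    rw [← hk]
    clear hk
    induction k with
    | zero => intro g hg; simpa using hg
    | succ k ih =>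
      intro g hg
      have h1 := conj_mem_pre S x hN (ih g hg)
      have h2 : (x : G) ^ (k + 1) * g * ((x : G) ^ (k + 1))⁻¹ = x * ((x : G) ^ k * g * ((x : G) ^ k)⁻¹) * (x : G)⁻¹ := by
        rw [pow_succ']; group
      rw [h2]; exact h1
  have hxR₁ := hxR N₁ hxN₁
  have hxR₂ := hxR N₂ hxN₂
  have hxz := mem_zpowers (x : G)
  have hR₁K : (Nat.card R₁ : K) ≠ 0 := by
    obtain ⟨k, hk⟩ := IsPGroup.iff_card.1 (hQq.to_le hR₁Q)
    rw [hk, Nat.cast_pow]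
    apply pow_ne_zero
    intro h0
    rw [CharP.cast_eq_zero_iff K 2] at h0
    exact hq2 ((Nat.prime_dvd_prime_iff_eq Nat.prime_two hq.out).1 h0).symm
  -- the irreducible submodule
  obtain ⟨U, hUW, hU⟩ := HH.exists_irrOn ρ R₁ (x : G) h.ne (fun g hg => h.invQ g (hR₁Q hg)) hxW
  obtain ⟨u₀, hu₀, hu₀0⟩ := (Submodule.ne_bot_iff _).1 hU.ne
  have hr2 : ∀ g ∈ R₁, g ∉ R → ∃ k ∈ R₁, ∃ c : K, c ≠ 1 ∧ ∀ w ∈ W, ρ (k * g * k⁻¹) w = c • ρ g w := by
    intro g hg hgR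
    obtain ⟨hgQ, hgN⟩ := (mem_pre S).1 hg
    have h1 : (S.π ⟨g, hgQ⟩).toAdd ≠ 0 := fun h0 => hgR ((pi_eq_zero S hgQ).1 h0)
    obtain ⟨b, hb, hb1⟩ : ∃ b ∈ N₁, β (S.π ⟨g, hgQ⟩).toAdd b ≠ 1 := by
      by_contra hcon
      push Not at hcon
      exact h1 (hnd₁ _ hgN hcon)
    obtain ⟨k, hk, rfl⟩ := exists_lift S b
    refine ⟨k, (mem_pre S).2 ⟨hk, hb⟩, β (S.π ⟨k, hk⟩).toAdd (S.π ⟨g, hgQ⟩).toAdd, ?_, ?_⟩
    · intro h2
      exact hb1 (h.pair.symm (Units.val_eq_one.1 h2))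
    · intro w hw
      have h2 := h.comm ⟨k, hk⟩ ⟨g, hgQ⟩ (ρ g w) (h.invQ _ hgQ _ hw)
      rw [← h2, ← HH.rho_mul]
      congr 2
      change k * g * k⁻¹ = k * g * k⁻¹ * g⁻¹ * g
      group
  have hfixR : ∀ g ∈ R₁, (∀ hg : g ∈ Q, S.ρ y (S.π ⟨g, hg⟩).toAdd = (S.π ⟨g, hg⟩).toAdd) → g ∈ R := by
    intro g hg h1
    obtain ⟨hgQ, hgN⟩ := (mem_pre S).1 hg
    rw [← pi_eq_zero S hgQ]
    have h2 := h1 hgQ
    rw [hN₁, mem_Mm] at hgN
    rw [hgN] at h2
    exact eq_zero_of_neg hq2 h2.symm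
  have hr4 : ∀ g ∈ R₁, g * x * g⁻¹ * (x : G)⁻¹ ∈ R → g ∈ R := by
    intro g hg hgR
    apply hfixR g hg
    intro hgQ
    have h1 : g * x * g⁻¹ * (x : G)⁻¹ = g * (x * g⁻¹ * (x : G)⁻¹) := by group
    have hg' : (x : G) * g⁻¹ * (x : G)⁻¹ ∈ Q := conj_mem (hYQ := hYQ) x (Q.inv_mem hgQ)
    rw [h1, ← pi_eq_zero S (Q.mul_mem hgQ hg'), pi_mul S hgQ hg', pi_conj S x (Q.inv_mem hgQ),
      pi_inv S hgQ, map_neg, ← sub_eq_add_neg, sub_eq_zero] at hgR
    have h2 : ∀ j : ℕ, S.ρ (x ^ j) (S.π ⟨g, hgQ⟩).toAdd = (S.π ⟨g, hgQ⟩).toAdd := by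
      intro j
      induction j with
      | zero => rw [pow_zero, rone]
      | succ j ih => rw [pow_succ', rmul, ih, ← hgR]
    rw [hy]; exact h2 _
  have hirr := hU.irr_of_stab (isOfFinOrder_of_finite _) hR₁K (hxR₁ _ hxz) (by
      intro g hg
      have := hxR₁ _ (inv_mem hxz) g hg
      rwa [inv_inv] at this) (R := R) (by
      intro g hg
      obtain ⟨c, hc⟩ := h.scal g hg
      exact ⟨c, fun w hw => hc w (hUW hw)⟩) (by
      intro g hg hgR
      obtain ⟨k, hk, c, hc, hc'⟩ := hr2 g hg hgR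
      exact ⟨k, hk, c, hc, fun w hw => hc' w (hUW hw)⟩) hr4
  -- the group P
  let SU : Subgroup G :=
    { carrier := {g | ∀ w ∈ U, ρ g w ∈ U}
      one_mem' := fun w hw => by rw [map_one]; exact hw
      mul_mem' := by
        intro a b ha hb w hw
        rw [HH.rho_mul]; exact ha _ (hb w hw)
      inv_mem' := by
        intro a ha
        exact HH.stable_zpowers (isOfFinOrder_of_finite a) ha a⁻¹ (Subgroup.inv_mem _ (Subgroup.mem_zpowers a)) }
  set P : Subgroup G := R₁ ⊔ zpowers (x : G) with hP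
  have hPS : P ≤ SU := by
    apply sup_le
    · exact hU.invQ
    · rw [Subgroup.zpowers_le]; exact hU.invy
  have hPU : ∀ g ∈ P, ∀ w ∈ U, ρ g w ∈ U := fun g hg => hPS hg
  set ρ' := HH.restr ρ P U hPU with hρ'
  have hρ'v : ∀ (g : P) (w : U), ((ρ' g w : U) : V) = ρ g w := fun _ _ => rfl
  set Q' := R₁.subgroupOf P with hQ'
  have hQP : R₁ ≤ P := le_sup_left
  have hxP : (x : G) ∈ P := (le_sup_right : zpowers (x : G) ≤ P) hxz
  have hyz : (y : G) ∈ zpowers (x : G) := by rw [hyG]; exact pow_mem hxz _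
  have hmapbot : ∀ W' : Submodule K U, W'.map U.subtype = ⊥ → W' = ⊥ := by
    intro W' hW'
    rw [eq_bot_iff]
    intro w hw
    have : (w : V) ∈ W'.map U.subtype := ⟨w, hw, rfl⟩
    rw [hW', Submodule.mem_bot] at this
    exact Subtype.ext this
  have hmaptop : ∀ W' : Submodule K U, W'.map U.subtype = U → W' = ⊤ := by
    intro W' hW'
    rw [eq_top_iff]
    rintro ⟨w, hw⟩ -
    have h4 := hw
    rw [← hW'] at h4
    obtain ⟨w', hw', hww'⟩ := h4
    have : w' = ⟨w, hw⟩ := Subtype.ext hww'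
    rw [← this]; exact hw'
  have hIrr : HH.Irr ρ' Q' := by
    refine ⟨(Submodule.nontrivial_iff_ne_bot).2 hU.ne, ?_⟩
    intro W' hWinv
    rcases hirr (W'.map U.subtype) (Submodule.map_subtype_le _ _) (by
      rintro g hg _ ⟨w, hw, rfl⟩
      exact ⟨_, hWinv ⟨g, hQP hg⟩ hg w hw, rfl⟩) with h4 | h4
    · exact Or.inl (hmapbot W' h4)
    · exact Or.inr (hmaptop W' h4)
  have hQ'card : Nat.card Q' = Nat.card R₁ := Nat.card_congr (Subgroup.subgroupOfEquivOfLe hQP).toEquiv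
  have hox : orderOf (⟨(x : G), hxP⟩ : P) = 2 ^ r := by
    rw [Subgroup.orderOf_mk, hx]
  -- a nontrivial element
  obtain ⟨m₀, hm₀, hm₀0⟩ : ∃ m ∈ N₁, m ≠ 0 := by
    obtain ⟨m, hm⟩ := hynt
    obtain ⟨a, b, rfl, ha, hb, -, -⟩ := decomp (ρ := S.ρ) hq2 hyy m
    refine ⟨a, mem_Mm.2 ha, ?_⟩
    rintro rfl
    apply hm
    rw [zero_add, hb]
  have htriv : ∀ (s : G) (hs : s ∈ Q), (S.π ⟨s, hs⟩).toAdd ∈ N₁ → (∀ w ∈ U, ρ s w = w) → (S.π ⟨s, hs⟩).toAdd = 0 := by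
    intro s hs hsN hsU
    apply hnd₁ _ hsN
    intro b hb
    obtain ⟨k, hk, rfl⟩ := exists_lift S b
    have hkR : k ∈ R₁ := (mem_pre S).2 ⟨hk, hb⟩
    have h1 := h.comm' hs hk (hUW hu₀)
    rw [hsU u₀ hu₀, hsU _ (hU.invQ k hkR u₀ hu₀)] at h1
    have h2 : ρ k u₀ ≠ 0 := by
      intro h0
      apply hu₀0
      rw [← HH.rho_inv_apply ρ k u₀, h0, map_zero]
    exact Units.val_eq_one.1 (smul_eq_self h2 h1.symm)
  have hfaith : ρ' ((⟨(x : G), hxP⟩ : P) ^ 2 ^ (r - 1)) ≠ 1 := by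
    intro h4
    have h5 : ∀ w ∈ U, ρ (y : G) w = w := by
      intro w hw
      have h6 := congrArg (fun f : Module.End K U => ((f ⟨w, hw⟩ : U) : V)) h4
      change ρ (((⟨(x : G), hxP⟩ : P) ^ 2 ^ (r - 1) : P) : G) w = w at h6
      rwa [Subgroup.coe_pow, ← hyG] at h6
    obtain ⟨g, hg, rfl⟩ := exists_lift S m₀
    have hgR : g ∈ R₁ := (mem_pre S).2 ⟨hg, hm₀⟩
    have hg' : (y : G) * g⁻¹ * (y : G)⁻¹ ∈ Q := conj_mem (hYQ := hYQ) y (Q.inv_mem hg)
    have h6 : (S.π ⟨(y : G) * g⁻¹ * (y : G)⁻¹ * g, Q.mul_mem hg' hg⟩).toAdd =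
        (S.π ⟨g, hg⟩).toAdd + (S.π ⟨g, hg⟩).toAdd := by
      rw [pi_mul S hg' hg, pi_conj S y (Q.inv_mem hg), pi_inv S hg, map_neg, mem_Mm.1 hm₀, neg_neg]
    have h7 : (S.π ⟨(y : G) * g⁻¹ * (y : G)⁻¹ * g, Q.mul_mem hg' hg⟩).toAdd = 0 := by
      apply htriv
      · rw [h6]; exact N₁.add_mem hm₀ hm₀
      · intro w hw
        have h8 : ∀ w ∈ U, ρ (y : G)⁻¹ w = w := by
          intro w hw
          conv_lhs => rw [← h5 w hw]
          exact HH.rho_inv_apply _ _ _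
        rw [HH.rho_mul, HH.rho_mul, HH.rho_mul, h8 _ (hU.invQ g hgR w hw), HH.rho_inv_apply, h5 w hw]
    rw [h6] at h7
    exact hm₀0 (eq_zero_of_neg hq2 (eq_neg_of_add_eq_zero_left h7))
  have hcz : ∀ c ∈ Subgroup.zpowers (⟨(x : G), hxP⟩ : P), (c : G) ∈ Subgroup.zpowers (x : G) := by
    intro c hc
    obtain ⟨k, rfl⟩ := Subgroup.mem_zpowers_iff.1 hc
    exact Subgroup.mem_zpowers_iff.2 ⟨k, rfl⟩
  have hscalR : ∀ g : P, (g : G) ∈ R₁ → (g : G) ∈ R → g ∈ HH.scal ρ' Q' := by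
    intro g hg hgR
    obtain ⟨c, hc⟩ := h.scal g hgR
    refine ⟨hg, c, ?_⟩
    apply LinearMap.ext
    intro w
    apply Subtype.ext
    exact hc w (hUW w.2)
  have hcrit := HH.crit_charP hIrr (by rw [hQ'card]; exact hR₁K) hr hox hfaith (by
    intro c hc g hg
    exact hxR₁ c (hcz c hc) g hg) (by
    intro c hc hc1 g hg hcg
    apply hscalR g hg
    apply hfixR _ hg
    intro hgQ
    have h4 : (x : G) ^ 2 ^ (r - 1) ∈ zpowers (c : G) := HH.mem_zpowers_of_ne_one hx (hcz c hc) (by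
      intro h5; exact hc1 (Subtype.ext h5))
    have h5 : Commute (c : G) (g : G) := by
      have h6 := congrArg Subtype.val (mul_inv_eq_iff_eq_mul.1 hcg)
      exact h6
    have h6 : Commute (y : G) (g : G) := by
      obtain ⟨k, hk⟩ := Subgroup.mem_zpowers_iff.1 h4
      rw [hyG, ← hk]
      exact h5.zpow_left k
    rw [← pi_conj S y hgQ (conj_mem (hYQ := hYQ) y hgQ)]
    congr 2
    apply Subtype.ext
    change (y : G) * g * (y : G)⁻¹ = g
    rw [h6.eq]; group)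
  have hpow' : ∀ (m : ℕ) (u : U), ((((ρ' ⟨(x : G), hxP⟩ - 1) ^ m) u : U) : V) = ((ρ (x : G) - 1 : Module.End K V) ^ m) u := by
    intro m
    induction m with
    | zero => intro u; rfl
    | succ m ih =>
      intro u
      rw [pow_succ', pow_succ', Module.End.mul_apply, Module.End.mul_apply, LinearMap.sub_apply,
        LinearMap.sub_apply, ← ih u]
      rfl
  have hA1 : (ρ' ⟨(x : G), hxP⟩ - 1) ^ (2 ^ r - 1) = 0 := by
    apply LinearMap.ext
    intro u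
    apply Subtype.ext
    rw [hpow', hnil u (hUW u.2)]; rfl
  obtain ⟨hdim, hA0⟩ := hcrit hA1
  haveI : Nontrivial V := ⟨u₀, 0, hu₀0⟩
  haveI : Nontrivial U := (Submodule.nontrivial_iff_ne_bot).2 hU.ne
  refine ⟨?_, ?_⟩
  · -- D1
    haveI : CharP (Module.End K V) 2 :=
      charP_of_injective_algebraMap (FaithfulSMul.algebraMap_injective K (Module.End K V)) 2
    let 𝒮 : Submodule K (U →ₗ[K] V) :=
      { carrier := {φ | (∀ u, φ u ∈ W) ∧ ∀ (g : P), (g : G) ∈ R₁ → ∀ u, φ (ρ' g u) = ρ (g : G) (φ u)}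
        add_mem' := by
          rintro a b ⟨ha, ha'⟩ ⟨hb, hb'⟩
          refine ⟨fun u => W.add_mem (ha u) (hb u), fun g hg u => ?_⟩
          rw [LinearMap.add_apply, LinearMap.add_apply, ha' g hg, hb' g hg, map_add]
        zero_mem' := ⟨fun u => W.zero_mem, fun g hg u => by
          rw [LinearMap.zero_apply, LinearMap.zero_apply, map_zero]⟩
        smul_mem' := by
          rintro c a ⟨ha, ha'⟩
          refine ⟨fun u => W.smul_mem c (ha u), fun g hg u => ?_⟩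
          rw [LinearMap.smul_apply, LinearMap.smul_apply, ha' g hg, map_smul] }
    have h𝒮 : ∀ φ, φ ∈ 𝒮 ↔ ((∀ u, φ u ∈ W) ∧ ∀ (g : P), (g : G) ∈ R₁ → ∀ u, φ (ρ' g u) = ρ (g : G) (φ u)) :=
      fun _ => Iff.rfl
    have hstep := hom_step (K := K) (U₀ := U) (V := V) (ρ' ⟨(x : G), hxP⟩) (ρ' (⟨(x : G), hxP⟩ : P)⁻¹)
      (HH.rho_mul_inv _ _) (HH.rho_inv_mul _ _) (ρ (x : G)) hr (by
        rw [← map_pow, ← hox, pow_orderOf_eq_one, map_one]) (by
        rw [← map_pow, hxr', map_one]) 𝒮 (by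
        rintro φ ⟨h1, h2⟩
        refine ⟨fun u => hxW _ (h1 _), fun g hg u => ?_⟩
        change ρ (x : G) (φ (ρ' (⟨(x : G), hxP⟩ : P)⁻¹ (ρ' g u))) = ρ (g : G) (ρ (x : G) (φ (ρ' (⟨(x : G), hxP⟩ : P)⁻¹ u)))
        have h3 : ρ' (⟨(x : G), hxP⟩ : P)⁻¹ (ρ' g u) =
            ρ' ((⟨(x : G), hxP⟩ : P)⁻¹ * g * ⟨(x : G), hxP⟩) (ρ' (⟨(x : G), hxP⟩ : P)⁻¹ u) := by
          rw [← HH.rho_mul, ← HH.rho_mul]
          congr 2; group
        have h4 : (((⟨(x : G), hxP⟩ : P)⁻¹ * g * ⟨(x : G), hxP⟩ : P) : G) ∈ R₁ := by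
          have := hxR₁ _ (inv_mem hxz) g hg
          rwa [inv_inv] at this
        rw [h3, h2 _ h4, ← HH.rho_mul, ← HH.rho_mul]
        congr 2
        change (x : G) * ((x : G)⁻¹ * g * x) = g * x
        group) (by
        rintro φ ⟨h1, h2⟩ hne
        rw [← LinearMap.ker_eq_bot]
        rcases hIrr.irr (LinearMap.ker φ) (by
          intro g hg w hw
          rw [LinearMap.mem_ker] at hw ⊢
          rw [h2 g hg, hw, map_zero]) with h3 | h3
        · exact h3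
        · exact absurd (LinearMap.ker_eq_top.1 h3) hne) (by
        rintro φ ⟨h1, h2⟩ u
        have h3 := HH.geom_eq_pow (ρ (x : G)) r (p := 2)
        have h4 := congrArg (fun f : Module.End K V => f (φ u)) h3
        simp only [LinearMap.sum_apply] at h4
        rw [h4, hnil _ (h1 u)]) hA1 hA0
    have key : ∀ g ∈ R₂, ∀ u ∈ U, ρ ((x : G) * g * (x : G)⁻¹) u = ρ g u := by
      intro g hg u hu
      obtain ⟨hgQ, hgN⟩ := (mem_pre S).1 hg
      have h1 := hstep ((ρ g).comp U.subtype) (by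
        refine ⟨fun u => h.invQ g hgQ _ (hUW u.2), fun k hk u => ?_⟩
        obtain ⟨hkQ, hkN⟩ := (mem_pre S).1 hk
        change ρ g (ρ (k : G) u) = ρ (k : G) (ρ g u)
        exact h.comm_of_eq_one hgQ hkQ (h.pair.symm (hperp _ hkN _ hgN)) (hUW u.2))
      have h2 := congrArg (fun f : U →ₗ[K] V => f ⟨u, hu⟩) h1
      change ρ (x : G) (ρ g (ρ (x : G)⁻¹ u)) = ρ g u at h2
      rw [HH.rho_mul, HH.rho_mul]
      exact h2
    intro m hm
    obtain ⟨g, hgQ, rfl⟩ := exists_lift S m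
    have hgR : g ∈ R₂ := (mem_pre S).2 ⟨hgQ, mem_Mp.2 hm⟩
    have hxg : (x : G) * g * (x : G)⁻¹ ∈ Q := conj_mem (hYQ := hYQ) x hgQ
    have hs : g⁻¹ * ((x : G) * g * (x : G)⁻¹) ∈ Q := Q.mul_mem (Q.inv_mem hgQ) hxg
    have hπs : (S.π ⟨_, hs⟩).toAdd = -(S.π ⟨g, hgQ⟩).toAdd + S.ρ x (S.π ⟨g, hgQ⟩).toAdd := by
      rw [pi_mul S (Q.inv_mem hgQ) hxg, pi_inv S hgQ, pi_conj S x hgQ]
    have hsN : (S.π ⟨_, hs⟩).toAdd ∈ N₂ := by
      rw [hπs]
      exact N₂.add_mem (N₂.neg_mem (mem_Mp.2 hm)) (hxN₂ _ (mem_Mp.2 hm))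
    have hs0 : (S.π ⟨_, hs⟩).toAdd = 0 := by
      apply hnd₂ _ hsN
      intro b hb
      obtain ⟨k, hk, rfl⟩ := exists_lift S b
      have hkR : k ∈ R₂ := (mem_pre S).2 ⟨hk, hb⟩
      -- s is trivial on U and on k U
      have h1 : ∀ k ∈ R₂, ρ (g⁻¹ * ((x : G) * g * (x : G)⁻¹)) (ρ k u₀) = ρ k u₀ := by
        intro k hk
        have h2 := key (g * k) (R₂.mul_mem hgR hk) u₀ hu₀
        have h3 : (x : G) * (g * k) * (x : G)⁻¹ = ((x : G) * g * (x : G)⁻¹) * ((x : G) * k * (x : G)⁻¹) := by group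
        rw [h3, HH.rho_mul, key k hk u₀ hu₀, HH.rho_mul ρ g k] at h2
        rw [HH.rho_mul, h2, HH.rho_inv_apply]
      have h2 := h.comm' hs hk (hUW hu₀)
      have h3 := h1 1 R₂.one_mem
      rw [map_one] at h3
      change ρ (g⁻¹ * ((x : G) * g * (x : G)⁻¹)) u₀ = u₀ at h3
      rw [h1 k hkR, h3] at h2
      have h4 : ρ k u₀ ≠ 0 := by
        intro h0
        apply hu₀0
        rw [← HH.rho_inv_apply ρ k u₀, h0, map_zero]
      exact Units.val_eq_one.1 (smul_eq_self h4 h2.symm)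
    rw [hπs, neg_add_eq_zero] at hs0
    exact hs0.symm
  · -- D2
    have hcl : ∀ g ∈ Q', ∀ k ∈ Q', ∃ c : K, ρ' (k * g * k⁻¹) = c • ρ' g := by
      intro g hg k hk
      obtain ⟨hgQ, hgN⟩ := (mem_pre S).1 (show (g : G) ∈ R₁ from hg)
      obtain ⟨hkQ, hkN⟩ := (mem_pre S).1 (show (k : G) ∈ R₁ from hk)
      refine ⟨β (S.π ⟨k, hkQ⟩).toAdd (S.π ⟨g, hgQ⟩).toAdd, ?_⟩
      apply LinearMap.ext
      intro w
      apply Subtype.ext
      have h2 := h.comm ⟨k, hkQ⟩ ⟨g, hgQ⟩ (ρ (g : G) w) (h.invQ _ hgQ _ (hUW w.2))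
      change ρ ((k : G) * g * (k : G)⁻¹) w = (β (S.π ⟨k, hkQ⟩).toAdd (S.π ⟨g, hgQ⟩).toAdd : K) • ρ (g : G) w
      rw [← h2, ← HH.rho_mul]
      congr 2
      change (k : G) * g * (k : G)⁻¹ = (k : G) * g * (k : G)⁻¹ * (g : G)⁻¹ * g
      group
    have hcard := hIrr.card_quot (by rw [hQ'card]; exact hR₁K) hcl
    rw [hdim] at hcard
    -- card of N₁
    let f : Q' →* Multiplicative N₁ :=
      { toFun := fun g => Multiplicative.ofAdd ⟨(S.π ⟨((g : P) : G), ((mem_pre S).1 g.2).1⟩).toAdd, ((mem_pre S).1 g.2).2⟩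
        map_one' := by
          apply Multiplicative.toAdd.injective
          apply Subtype.ext
          exact (pi_eq_zero S _).2 R.one_mem
        map_mul' := fun a b => by
          apply Multiplicative.toAdd.injective
          apply Subtype.ext
          exact pi_mul S ((mem_pre S).1 a.2).1 ((mem_pre S).1 b.2).1 _ }
    have hf : Function.Surjective f := by
      intro m
      obtain ⟨g, hg, hgm⟩ := exists_lift S (m.toAdd : M)
      have hgR : g ∈ R₁ := (mem_pre S).2 ⟨hg, by rw [hgm]; exact m.toAdd.2⟩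
      refine ⟨⟨⟨g, hQP hgR⟩, hgR⟩, ?_⟩
      apply Multiplicative.toAdd.injective
      apply Subtype.ext
      exact hgm
    have hker : f.ker = HH.scalQ ρ' Q' := by
      ext g
      rw [MonoidHom.mem_ker, Subgroup.mem_subgroupOf]
      obtain ⟨hgQ, hgN⟩ := (mem_pre S).1 (show ((g : P) : G) ∈ R₁ from g.2)
      have h1 : f g = 1 ↔ (S.π ⟨((g : P) : G), hgQ⟩).toAdd = 0 := by
        constructor
        · intro h1
          exact congrArg (fun z : Multiplicative N₁ => ((z.toAdd : N₁) : M)) h1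
        · intro h1
          apply Multiplicative.toAdd.injective
          apply Subtype.ext
          exact h1
      rw [h1]
      constructor
      · intro h2
        exact hscalR _ g.2 ((pi_eq_zero S hgQ).1 h2)
      · rintro ⟨-, c, hc⟩
        apply hnd₁ _ hgN
        intro b hb
        obtain ⟨k, hk, rfl⟩ := exists_lift S b
        have hkR : k ∈ R₁ := (mem_pre S).2 ⟨hk, hb⟩
        have h3 := h.comm' hgQ hk (hUW hu₀)
        have h4 : ∀ u ∈ U, ρ ((g : P) : G) u = c • u := by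
          intro u hu
          have := congrArg (fun f : Module.End K U => ((f ⟨u, hu⟩ : U) : V)) hc
          exact this
        rw [h4 u₀ hu₀, h4 _ (hU.invQ k hkR u₀ hu₀), map_smul] at h3
        have hc0 : c ≠ 0 := by
          rintro rfl
          apply hu₀0
          rw [← HH.rho_inv_apply ρ ((g : P) : G) u₀, h4 u₀ hu₀, zero_smul, map_zero]
        have h5 : c • ρ k u₀ ≠ 0 := by
          intro h0
          rcases smul_eq_zero.1 h0 with h0 | h0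
          · exact hc0 h0
          · apply hu₀0
            rw [← HH.rho_inv_apply ρ k u₀, h0, map_zero]
        exact Units.val_eq_one.1 (smul_eq_self h5 h3.symm)
    have hcN : Nat.card N₁ = (2 ^ r - 1) ^ 2 := by
      rw [← hcard, ← hker]
      exact (Nat.card_congr (QuotientGroup.quotientKerEquivOfSurjective f hf).toEquiv).symm
    obtain ⟨e, he⟩ : ∃ e, Nat.card N₁ = q ^ e := by
      haveI : Finite N₁ := inferInstance
      have := Module.natCard_eq_pow_finrank (K := ZMod q) (V := N₁)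
      rw [Nat.card_zmod] at this
      exact ⟨_, this⟩
    obtain ⟨a, -, ha⟩ := (Nat.dvd_prime_pow hq.out).1 (show 2 ^ r - 1 ∣ q ^ e by
      rw [← he, hcN]; exact Dvd.intro_left _ (by rw [pow_two]))
    have h2r : 2 ≤ 2 ^ r := by
      calc 2 = 2 ^ 1 := by norm_num
        _ ≤ 2 ^ r := Nat.pow_le_pow_right (by norm_num) hr
    have ha1 : 1 ≤ a := by
      by_contra hcon
      have : a = 0 := by omega
      rw [this, pow_zero] at ha
      rw [ha, one_pow] at hcN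
      have h6 : Subsingleton N₁ := (Nat.card_eq_one_iff_unique.1 hcN).1
      exact hm₀0 (congrArg Subtype.val (h6.elim ⟨m₀, hm₀⟩ 0))
    have ha2 := mersenne hq.out hq2 ha1 (show q ^ a + 1 = 2 ^ r by rw [← ha]; omega)
    rw [ha2, pow_one] at ha
    refine ⟨?_, by omega⟩
    rw [hcN, ha]

end Cfsg.Agent.H49.Gr
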