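import Mathlib
import Cfsg.Agent.H49.Gr.D2

set_option autoImplicit false
set_option linter.style.haveILetI false
set_option linter.unusedSectionVars false
set_option linter.unusedVariables false

/-!
Homogeneous components by class sums.
-/

namespace Cfsg.Agent.H49.Gr

open Module Subgroup
open scoped BigOperators

universe u

variable {K : Type*} [Field K] [IsAlgClosed K] [CharP K 2] {V : Type*} [AddCommGroup V] [Module K V]
  [FiniteDimensional K V] {G : Type u} [Group G] [Finite G] {ρ : Representation K G V}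
  {Q : Subgroup G}

/-- class sum -/
noncomputable def cls (ρ : Representation K G V) (Q : Subgroup G) (g : G) : Module.End K V :=
  letI := Fintype.ofFinite Q
  ∑ h : Q, ρ ((h : G) * g * (h : G)⁻¹)

theorem cls_eq [Fintype Q] (g : G) : cls ρ Q g = ∑ h : Q, ρ ((h : G) * g * (h : G)⁻¹) := by
  unfold cls
  exact Finset.sum_congr (by ext; simp) (fun _ _ => rfl)

/-- weight space -/
noncomputable def wt (ρ : Representation K G V) (Q : Subgroup G) (ω : G → K) : Submodule K V where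
  carrier := {v | ∀ g ∈ Q, cls ρ Q g v = ω g • v}
  add_mem' := by
    intro a b ha hb g hg
    rw [map_add, ha g hg, hb g hg, smul_add]
  zero_mem' := fun g _ => by rw [map_zero, smul_zero]
  smul_mem' := by
    intro c a ha g hg
    rw [map_smul, ha g hg, smul_comm]

theorem mem_wt {ω : G → K} {v : V} : v ∈ wt ρ Q ω ↔ ∀ g ∈ Q, cls ρ Q g v = ω g • v := Iff.rfl

theorem cls_comm {k : G} (hk : k ∈ Q) (g : G) : cls ρ Q g * ρ k = ρ k * cls ρ Q g := by
  letI := Fintype.ofFinite Q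
  rw [cls_eq, Finset.sum_mul, Finset.mul_sum, ← Equiv.sum_comp (Equiv.mulLeft (⟨k, hk⟩ : Q))]
  apply Finset.sum_congr rfl
  intro h _
  rw [← map_mul, ← map_mul]
  congr 1
  change (k * h) * g * (k * (h : G))⁻¹ * k = k * (h * g * (h : G)⁻¹)
  group

theorem cls_conj {a : G} (ha : a ∈ normalizer (Q : Set G)) (g : G) :
    cls ρ Q g * ρ a = ρ a * cls ρ Q (a⁻¹ * g * a) := by
  letI := Fintype.ofFinite Q
  have h1 : ∀ h : Q, a * h * a⁻¹ ∈ Q := fun h => (mem_normalizer_iff.1 ha h).1 h.2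
  have h2 : ∀ h : Q, a⁻¹ * h * a ∈ Q := fun h => (mem_normalizer_iff''.1 ha h).1 h.2
  let e : Q ≃ Q :=
    { toFun := fun h => ⟨a * h * a⁻¹, h1 h⟩
      invFun := fun h => ⟨a⁻¹ * h * a, h2 h⟩
      left_inv := fun h => Subtype.ext (by change a⁻¹ * (a * (h : G) * a⁻¹) * a = h; group)
      right_inv := fun h => Subtype.ext (by change a * (a⁻¹ * (h : G) * a) * a⁻¹ = h; group) }
  rw [cls_eq, cls_eq, Finset.sum_mul, Finset.mul_sum, ← Equiv.sum_comp e]
  apply Finset.sum_congr rfl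
  intro h _
  rw [← map_mul, ← map_mul]
  congr 1
  change (a * h * a⁻¹) * g * (a * (h : G) * a⁻¹)⁻¹ * a = a * (h * (a⁻¹ * g * a) * (h : G)⁻¹)
  group

theorem cls_inner {k : G} (hk : k ∈ Q) (g : G) : cls ρ Q (k⁻¹ * g * k) = cls ρ Q g := by
  letI := Fintype.ofFinite Q
  rw [cls_eq, cls_eq, ← Equiv.sum_comp (Equiv.mulRight (⟨k, hk⟩ : Q))]
  apply Finset.sum_congr rfl
  intro h _
  congr 1
  change (h * k) * (k⁻¹ * g * k) * ((h : G) * k)⁻¹ = h * g * (h : G)⁻¹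
  group

theorem wt_invQ {ω : G → K} : ∀ g ∈ Q, ∀ w ∈ wt ρ Q ω, ρ g w ∈ wt ρ Q ω := by
  intro k hk w hw g hg
  rw [← Module.End.mul_apply, cls_comm hk, Module.End.mul_apply, hw g hg, map_smul]

theorem wt_conj {ω : G → K} {a : G} (ha : a ∈ normalizer (Q : Set G)) {w : V} (hw : w ∈ wt ρ Q ω) :
    ρ a w ∈ wt ρ Q (fun g => ω (a⁻¹ * g * a)) := by
  intro g hg
  rw [← Module.End.mul_apply, cls_conj ha, Module.End.mul_apply,
    hw _ ((mem_normalizer_iff''.1 ha g).1 hg), map_smul]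

/-- central elements act as scalars -/
theorem wt_scal {ω : G → K} (hQK : (Nat.card Q : K) ≠ 0) {r : G} (hr : r ∈ Q)
    (h : ∀ k ∈ Q, ∀ w ∈ wt ρ Q ω, ρ (k * r * k⁻¹) w = ρ r w) :
    ∃ c : K, ∀ w ∈ wt ρ Q ω, ρ r w = c • w := by
  letI := Fintype.ofFinite Q
  refine ⟨(Nat.card Q : K)⁻¹ * ω r, fun w hw => ?_⟩
  have h1 := hw r hr
  rw [cls_eq, LinearMap.sum_apply, Finset.sum_congr rfl (fun (k : Q) _ => h k k.2 w hw), Finset.sum_const,
    Finset.card_univ, ← Nat.card_eq_fintype_card, ← Nat.cast_smul_eq_nsmul K] at h1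
  rw [mul_smul, ← h1, smul_smul, inv_mul_cancel₀ hQK, one_smul]

/-- separation -/
theorem exists_wt (hQK : (Nat.card Q : K) ≠ 0) {z : G} (hz : z ∈ Q) (hzc : ∀ k ∈ Q, z * k = k * z)
    (hz1 : ρ z ≠ 1) : ∃ ω : G → K, wt ρ Q ω ≠ ⊥ ∧ ∃ w ∈ wt ρ Q ω, ρ z w ≠ w := by
  classical
  letI := Fintype.ofFinite Q
  have hzQ : zpowers z ≤ Q := by rw [zpowers_le]; exact hz
  have hcen : ∀ g ∈ zpowers z, ∀ k ∈ Q, k * g = g * k := by
    intro g hg k hk
    obtain ⟨i, rfl⟩ := mem_zpowers_iff.1 hg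
    exact ((show Commute z k from hzc k hk).zpow_left i).symm.eq
  obtain ⟨m, hm⟩ : ∃ m, Nat.card Q = Nat.card (zpowers z) * m := by
    obtain ⟨m, hm⟩ := Subgroup.card_dvd_of_le hzQ
    exact ⟨m, hm⟩
  have hzK : (Nat.card (zpowers z) : K) ≠ 0 := by
    intro h0
    apply hQK
    rw [hm, Nat.cast_mul, h0, zero_mul]
  haveI := Fintype.ofFinite (zpowers z)
  set e : Module.End K V := ∑ g : zpowers z, ρ (g : G) with he
  have hek : ∀ k ∈ Q, e * ρ k = ρ k * e := by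
    intro k hk
    rw [he, Finset.sum_mul, Finset.mul_sum]
    apply Finset.sum_congr rfl
    intro g _
    rw [← map_mul, ← map_mul, hcen g g.2 k hk]
  have hez : e * ρ z = e := by
    rw [he, Finset.sum_mul]
    conv_rhs => rw [← Equiv.sum_comp (Equiv.mulRight (⟨z, mem_zpowers z⟩ : zpowers z))]
    apply Finset.sum_congr rfl
    intro g _
    rw [← map_mul]; rfl
  have hker : LinearMap.ker e ≠ ⊥ := by
    intro h0
    apply hz1
    apply LinearMap.ext
    intro v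
    have h1 : ρ z v - v ∈ LinearMap.ker e := by
      rw [LinearMap.mem_ker, map_sub, ← Module.End.mul_apply, hez, sub_self]
    rw [h0, Submodule.mem_bot, sub_eq_zero] at h1
    exact h1
  obtain ⟨U, hUe, hU0, hUQ, hUmin⟩ := HH.exists_min_inv ρ Q hker (by
    intro k hk w hw
    rw [LinearMap.mem_ker] at hw ⊢
    rw [← Module.End.mul_apply, hek k hk, Module.End.mul_apply, hw, map_zero])
  have hsch : ∀ g : G, ∃ c : K, g ∈ Q → ∀ w ∈ U, cls ρ Q g w = c • w := by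
    intro g
    by_cases hg : g ∈ Q
    · obtain ⟨c, hc⟩ := HH.schur_min hU0 hUQ hUmin (cls ρ Q g) (by
        intro w hw
        rw [cls_eq, LinearMap.sum_apply]
        exact U.sum_mem (fun k _ => hUQ _ (Q.mul_mem (Q.mul_mem k.2 hg) (Q.inv_mem k.2)) w hw)) (by
        intro k hk w _
        rw [← Module.End.mul_apply, cls_comm hk]; rfl)
      exact ⟨c, fun _ => hc⟩
    · exact ⟨0, fun h => absurd h hg⟩
  choose ω hω using hsch
  have hUw : U ≤ wt ρ Q ω := fun w hw g hg => hω g hg w hw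
  obtain ⟨u, hu, hu0⟩ := (Submodule.ne_bot_iff _).1 hU0
  refine ⟨ω, ?_, u, hUw hu, ?_⟩
  · rw [Submodule.ne_bot_iff]; exact ⟨u, hUw hu, hu0⟩
  · intro hfix
    have h2 : ∀ g : zpowers z, ρ (g : G) u = u := by
      rintro ⟨g, hg⟩
      obtain ⟨i, rfl⟩ := (Submonoid.mem_powers_iff g z).1
        ((isOfFinOrder_of_finite z).mem_powers_iff_mem_zpowers.2 hg)
      change ρ (z ^ i) u = u
      clear hg
      induction i with
      | zero => rw [pow_zero, map_one]; rfl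
      | succ i ih => rw [pow_succ', HH.rho_mul, ih, hfix]
    have h3 := hUe hu
    rw [LinearMap.mem_ker, he, LinearMap.sum_apply, Finset.sum_congr rfl (fun g _ => h2 g), Finset.sum_const,
      Finset.card_univ, ← Nat.card_eq_fintype_card, ← Nat.cast_smul_eq_nsmul K] at h3
    rcases smul_eq_zero.1 h3 with h4 | h4
    · exact hzK h4
    · exact hu0 h4

/-- the orbit of a weight under a 2-element -/
theorem orbit {ω : G → K} (hω : wt ρ Q ω ≠ ⊥) {x : G} (hxQ : x ∈ normalizer (Q : Set G)) {n : ℕ}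
    (hx : x ^ 2 ^ n = 1) (hnil : (ρ x - 1) ^ (2 ^ n - 1) = 0) :
    ∃ j < n, (∀ g ∈ Q, ω ((x ^ 2 ^ j)⁻¹ * g * x ^ 2 ^ j) = ω g) ∧
      ∀ w ∈ wt ρ Q ω, ((ρ (x ^ 2 ^ j) - 1 : Module.End K V) ^ (2 ^ (n - j) - 1)) w = 0 := by
  classical
  obtain ⟨w₀, hw₀, hw₀0⟩ := (Submodule.ne_bot_iff _).1 hω
  haveI : Nontrivial V := ⟨w₀, 0, hw₀0⟩
  haveI : CharP (Module.End K V) 2 :=
    charP_of_injective_algebraMap (FaithfulSMul.algebraMap_injective K (Module.End K V)) 2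
  have hex : ∃ j : ℕ, ∀ g ∈ Q, ω ((x ^ 2 ^ j)⁻¹ * g * x ^ 2 ^ j) = ω g :=
    ⟨n, fun g _ => by rw [hx]; simp⟩
  set j := Nat.find hex with hj
  have hjs := Nat.find_spec hex
  have hjn : j ≤ n := Nat.find_min' hex (fun g _ => by rw [hx]; simp)
  have hjm : ∀ i < j, ¬ ∀ g ∈ Q, ω ((x ^ 2 ^ i)⁻¹ * g * x ^ 2 ^ i) = ω g := fun i hi => Nat.find_min hex hi
  -- stabilizer
  have hst : ∀ a b : ℕ, (∀ g ∈ Q, ω ((x ^ a)⁻¹ * g * x ^ a) = ω g) → (∀ g ∈ Q, ω ((x ^ b)⁻¹ * g * x ^ b) = ω g) →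
      ∀ g ∈ Q, ω ((x ^ (a + b))⁻¹ * g * x ^ (a + b)) = ω g := by
    intro a b ha hb g hg
    have h1 : (x ^ (a + b))⁻¹ * g * x ^ (a + b) = (x ^ b)⁻¹ * ((x ^ a)⁻¹ * g * x ^ a) * x ^ b := by
      rw [pow_add]; group
    rw [h1, hb _ ((mem_normalizer_iff''.1 (pow_mem hxQ a) g).1 hg), ha g hg]
  have hmul : ∀ a m : ℕ, (∀ g ∈ Q, ω ((x ^ a)⁻¹ * g * x ^ a) = ω g) →
      ∀ g ∈ Q, ω ((x ^ (a * m))⁻¹ * g * x ^ (a * m)) = ω g := by
    intro a m ha
    induction m with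
    | zero => intro g _; simp
    | succ m ih =>
      rw [Nat.mul_succ]
      exact hst _ _ ih ha
  -- distinct weights
  have hdist : ∀ a b : ℕ, a < b → b < 2 ^ j → ¬ ∀ g ∈ Q, ω ((x ^ a)⁻¹ * g * x ^ a) = ω ((x ^ b)⁻¹ * g * x ^ b) := by
    intro a b hab hb hcon
    obtain ⟨d, hd, hd0, hd2⟩ : ∃ d, b = a + d ∧ 0 < d ∧ d < 2 ^ j := ⟨b - a, by omega, by omega, by omega⟩
    have h1 : ∀ g ∈ Q, ω ((x ^ d)⁻¹ * g * x ^ d) = ω g := by
      intro g hg
      have h2 := hcon (x ^ a * g * (x ^ a)⁻¹) ((mem_normalizer_iff.1 (pow_mem hxQ a) g).1 hg)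
      have h3 : (x ^ a)⁻¹ * (x ^ a * g * (x ^ a)⁻¹) * x ^ a = g := by group
      have h4 : (x ^ b)⁻¹ * (x ^ a * g * (x ^ a)⁻¹) * x ^ b = (x ^ d)⁻¹ * g * x ^ d := by
        rw [hd, pow_add]; group
      rw [h3, h4] at h2
      exact h2.symm
    obtain ⟨l, hl, hgl⟩ := (Nat.dvd_prime_pow Nat.prime_two).1 (Nat.gcd_dvd_right d (2 ^ n))
    have hlj : l < j := by
      by_contra hcon'
      have h5 : 2 ^ j ∣ d := (pow_dvd_pow 2 (not_lt.1 hcon')).trans (hgl ▸ Nat.gcd_dvd_left _ _)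
      exact absurd (Nat.le_of_dvd hd0 h5) (by omega)
    apply hjm l hlj
    -- x ^ 2 ^ l is a power of x ^ d
    obtain ⟨m, hm⟩ : ∃ m : ℕ, x ^ 2 ^ l = x ^ (d * m) := by
      obtain ⟨m, hm⟩ := Nat.exists_mul_mod_eq_gcd (n := d) (k := 2 ^ n) (by
        rw [hgl]; exact Nat.pow_lt_pow_right (by norm_num) (by omega))
      refine ⟨m, ?_⟩
      rw [← hgl, pow_eq_pow_iff_modEq]
      have h6 : orderOf x ∣ 2 ^ n := orderOf_dvd_of_pow_eq_one hx
      have h7 : d.gcd (2 ^ n) ≡ d * m [MOD 2 ^ n] := by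
        rw [← hm.2]
        exact Nat.mod_modEq _ _
      exact h7.of_dvd h6
    rw [hm]
    exact hmul d m h1
  have hkey : ∀ w ∈ wt ρ Q ω, ((ρ (x ^ 2 ^ j) - 1 : Module.End K V) ^ (2 ^ (n - j) - 1)) w = 0 := by
    intro w hw
    have hxjW : ∀ w ∈ wt ρ Q ω, ρ (x ^ 2 ^ j) w ∈ wt ρ Q ω := by
      intro w hw g hg
      have h0 := wt_conj (pow_mem hxQ (2 ^ j)) hw g hg
      rw [h0]
      congr 1
      exact hjs g hg
    set u := ((ρ (x ^ 2 ^ j) - 1 : Module.End K V) ^ (2 ^ (n - j) - 1)) w with hu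
    have huW : u ∈ wt ρ Q ω := pow_invar hxjW _ w hw
    have h1 : ∑ i ∈ Finset.range (2 ^ j), ρ (x ^ i) u = 0 := by
      have h2 := HH.geom_eq_pow (ρ x) j (p := 2)
      have h3 : ((ρ x - 1 : Module.End K V) ^ (2 ^ j - 1)) u = 0 := by
        have h4 : ρ (x ^ 2 ^ j) - 1 = (ρ x - 1 : Module.End K V) ^ 2 ^ j := by
          rw [sub_pow_char_pow_of_commute _ _ (Commute.one_right _), one_pow, ← map_pow]
        rw [hu, h4, ← pow_mul, ← Module.End.mul_apply, ← pow_add]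
        have h5 : 2 ^ j - 1 + 2 ^ j * (2 ^ (n - j) - 1) = 2 ^ n - 1 := by
          have h6 : 2 ^ n = 2 ^ j * 2 ^ (n - j) := by rw [← pow_add]; congr 1; omega
          rw [h6, Nat.mul_sub, mul_one]
          have h7 : 1 ≤ 2 ^ j := Nat.one_le_two_pow
          have h8 : 2 ^ j * 1 ≤ 2 ^ j * 2 ^ (n - j) := Nat.mul_le_mul_left _ Nat.one_le_two_pow
          omega
        rw [h5, hnil]; rfl
      rw [← h2, LinearMap.sum_apply] at h3
      rw [← h3]
      apply Finset.sum_congr rfl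
      intro i _
      rw [map_pow]
    have h2 := HH.indep_weights (ι := ℕ) (A := Q) (fun g => cls ρ Q (g : G))
      (fun i g => ω ((x ^ i)⁻¹ * g * x ^ i)) (Finset.range (2 ^ j)) (fun i => ρ (x ^ i) u) (by
        intro a ha b hb hab heq
        rw [Finset.mem_range] at ha hb
        have h4 : ∀ g ∈ Q, ω ((x ^ a)⁻¹ * g * x ^ a) = ω ((x ^ b)⁻¹ * g * x ^ b) := fun g hg =>
          congrFun heq ⟨g, hg⟩
        rcases lt_or_gt_of_ne hab with h5 | h5
        · exact hdist a b h5 hb h4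
        · exact hdist b a h5 ha (fun g hg => (h4 g hg).symm)) (by
        intro i _ g
        exact wt_conj (pow_mem hxQ i) huW g g.2) h1 0 (Finset.mem_range.2 (by positivity))
    simpa using h2
  refine ⟨j, ?_, hjs, hkey⟩
  by_contra hcon
  have h1 : j = n := le_antisymm hjn (not_lt.1 hcon)
  have h2 := hkey w₀ hw₀
  rw [h1, Nat.sub_self, pow_zero, Nat.sub_self, pow_zero] at h2
  exact hw₀0 h2

end Cfsg.Agent.H49.Gr
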