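import Mathlib
import Cfsg.Agent.H49.Gr.W

set_option autoImplicit false
set_option linter.style.haveILetI false
set_option linter.unusedSectionVars false
set_option linter.unusedVariables false

/-!
The section attached to a homogeneous component.
-/

namespace Cfsg.Agent.H49.Gr

open Module Subgroup
open scoped BigOperators

universe u

variable {K : Type*} [Field K] [IsAlgClosed K] [CharP K 2] {V : Type*} [AddCommGroup V] [Module K V]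
  [FiniteDimensional K V] {G : Type u} [Group G] [Finite G] {ρ : Representation K G V}
  {q : ℕ} [hq : Fact q.Prime] {Q Y : Subgroup G}

lemma rho_ne {g : G} {w : V} (hw : w ≠ 0) : ρ g w ≠ 0 := by
  intro h0
  apply hw
  rw [← HH.rho_inv_apply ρ g w, h0, map_zero]

lemma smul_cancel' {c c' : Kˣ} {u : V} (hu : u ≠ 0) (h : (c : K) • u = (c' : K) • u) : c = c' := by
  apply Units.ext
  have h1 : ((c : K) - c') • u = 0 := by rw [sub_smul, h, sub_self]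
  rcases smul_eq_zero.1 h1 with h2 | h2
  · exact sub_eq_zero.1 h2
  · exact absurd h2 hu

/-- the elements of `Q` acting as scalars on a weight space -/
def Rw (ρ : Representation K G V) (Q : Subgroup G) (W : Submodule K V) (hW : ∀ g ∈ Q, ∀ w ∈ W, ρ g w ∈ W) :
    Subgroup G where
  carrier := {g | g ∈ Q ∧ ∀ h ∈ Q, ∀ w ∈ W, ρ g (ρ h w) = ρ h (ρ g w)}
  one_mem' := ⟨Q.one_mem, fun h _ w _ => by rw [map_one]; rfl⟩
  mul_mem' := by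
    rintro a b ⟨ha, ha'⟩ ⟨hb, hb'⟩
    refine ⟨Q.mul_mem ha hb, fun h hh w hw => ?_⟩
    rw [HH.rho_mul, HH.rho_mul, hb' h hh w hw, ha' h hh _ (hW b hb w hw)]
  inv_mem' := by
    rintro a ⟨ha, ha'⟩
    refine ⟨Q.inv_mem ha, fun h hh w hw => ?_⟩
    have h4 := ha' h hh _ (hW _ (Q.inv_mem ha) w hw)
    rw [HH.rho_apply_inv] at h4
    rw [← h4, HH.rho_inv_apply]

theorem mem_Rw {W : Submodule K V} {hW : ∀ g ∈ Q, ∀ w ∈ W, ρ g w ∈ W} {g : G} :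
    g ∈ Rw ρ Q W hW ↔ g ∈ Q ∧ ∀ h ∈ Q, ∀ w ∈ W, ρ g (ρ h w) = ρ h (ρ g w) := Iff.rfl

theorem Rw_conj {W : Submodule K V} {hW : ∀ g ∈ Q, ∀ w ∈ W, ρ g w ∈ W} {c : G}
    (hc : c ∈ normalizer (Q : Set G)) (hcW : ∀ w ∈ W, ρ c w ∈ W) {g : G} (hg : g ∈ Rw ρ Q W hW) :
    c * g * c⁻¹ ∈ Rw ρ Q W hW := by
  have hcW' : ∀ w ∈ W, ρ c⁻¹ w ∈ W :=
    HH.stable_zpowers (isOfFinOrder_of_finite c) hcW c⁻¹ (inv_mem (mem_zpowers c))
  rw [mem_Rw] at hg ⊢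
  refine ⟨(mem_normalizer_iff.1 hc g).1 hg.1, fun h hh w hw => ?_⟩
  have h4 := hg.2 _ ((mem_normalizer_iff''.1 hc h).1 hh) _ (hcW' w hw)
  have h5 : ρ (c * g * c⁻¹) (ρ h w) = ρ c (ρ g (ρ (c⁻¹ * h * c) (ρ c⁻¹ w))) := by
    simp only [← HH.rho_mul]; congr 2; group
  have h6 : ρ h (ρ (c * g * c⁻¹) w) = ρ c (ρ (c⁻¹ * h * c) (ρ g (ρ c⁻¹ w))) := by
    simp only [← HH.rho_mul]; congr 2; group
  rw [h5, h6, h4]

theorem Rw_norm {W : Submodule K V} {hW : ∀ g ∈ Q, ∀ w ∈ W, ρ g w ∈ W}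
    (hYQ : Y ≤ normalizer (Q : Set G)) (hYW : ∀ c ∈ Y, ∀ w ∈ W, ρ c w ∈ W) :
    Y ≤ normalizer (Rw ρ Q W hW : Set G) := by
  intro c hc
  rw [mem_normalizer_iff]
  intro g
  refine ⟨fun hg => Rw_conj (hYQ hc) (hYW c hc) hg, fun hg => ?_⟩
  have := Rw_conj (hYQ (Y.inv_mem hc)) (hYW _ (Y.inv_mem hc)) hg
  have h7 : c⁻¹ * (c * g * c⁻¹) * c⁻¹⁻¹ = g := by group
  rwa [h7] at this

theorem exists_onW {ω : G → K} (hω : wt ρ Q ω ≠ ⊥) (hQK : (Nat.card Q : K) ≠ 0)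
    (hcl : ∀ g ∈ Q, ∀ h ∈ Q, ∀ k ∈ Q, (g * h * g⁻¹ * h⁻¹) * k = k * (g * h * g⁻¹ * h⁻¹))
    (hpow : ∀ g ∈ Q, ∀ k ∈ Q, g ^ q * k = k * g ^ q)
    (hYQ : Y ≤ normalizer (Q : Set G)) (hY : ∀ a ∈ Y, ∀ g ∈ Q, ω (a⁻¹ * g * a) = ω g) :
    ∃ (M : Type u) (_ : AddCommGroup M) (_ : Module (ZMod q) M) (_ : Finite M)
      (S : BG3.SecMod q Q (Rw ρ Q (wt ρ Q ω) wt_invQ) Y hYQ M) (β : M → M → Kˣ), OnW ρ S β (wt ρ Q ω) := by
  classical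
  set W := wt ρ Q ω with hW
  have hWQ : ∀ g ∈ Q, ∀ w ∈ W, ρ g w ∈ W := wt_invQ
  have hWY : ∀ a ∈ Y, ∀ w ∈ W, ρ a w ∈ W := by
    intro a ha w hw g hg
    rw [wt_conj (hYQ ha) hw g hg]
    congr 1
    exact hY a ha g hg
  set R := Rw ρ Q W hWQ with hR
  have hRQ : R ≤ Q := fun g hg => hg.1
  have hzR : ∀ z ∈ Q, (∀ k ∈ Q, z * k = k * z) → z ∈ R := by
    intro z hz hzc
    refine ⟨hz, fun h hh w _ => ?_⟩
    rw [← HH.rho_mul, ← HH.rho_mul, hzc h hh]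
  have hRs : ∀ g ∈ R, ∃ c : K, ∀ w ∈ W, ρ g w = c • w := by
    intro g hg
    apply wt_scal hQK hg.1
    intro k hk w hw
    rw [HH.rho_mul, HH.rho_mul, ← hg.2 k hk _ (hWQ _ (Q.inv_mem hk) w hw), HH.rho_apply_inv]
  obtain ⟨w₀, hw₀, hw₀0⟩ := (Submodule.ne_bot_iff _).1 hω
  obtain ⟨M, hM1, hM2, ⟨S⟩⟩ := BG3.exists_secMod (ℓ := q) (M := Q) (M1 := R) (Y := Y)
    (Rw_norm le_normalizer hWQ) hYQ (Rw_norm hYQ hWY)
    (fun g hg => hzR _ (pow_mem hg q) (hpow g hg))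
    (fun g hg h hh => hzR _ (Q.mul_mem (Q.mul_mem (Q.mul_mem hg hh) (Q.inv_mem hg)) (Q.inv_mem hh)) (hcl g hg h hh))
  have hex : ∀ a b : M, ∃ c : Kˣ, ∀ g h : Q, (S.π g).toAdd = a → (S.π h).toAdd = b → ∀ w ∈ W,
      ρ (g : G) (ρ (h : G) w) = (c : K) • ρ (h : G) (ρ (g : G) w) := by
    intro a b
    obtain ⟨g₀, hg₀⟩ := S.exists_rep a
    obtain ⟨h₀, hh₀⟩ := S.exists_rep b
    obtain ⟨c, hc⟩ := hRs ((g₀ : G) * h₀ * (g₀ : G)⁻¹ * (h₀ : G)⁻¹) (hzR _ (Q.mul_mem (Q.mul_mem (Q.mul_mem g₀.2 h₀.2)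
      (Q.inv_mem g₀.2)) (Q.inv_mem h₀.2)) (hcl g₀ g₀.2 h₀ h₀.2))
    have hc0 : c ≠ 0 := by
      rintro rfl
      have h1 := hc w₀ hw₀
      rw [zero_smul] at h1
      exact rho_ne hw₀0 h1
    have h0 : ∀ w ∈ W, ρ (g₀ : G) (ρ (h₀ : G) w) = c • ρ (h₀ : G) (ρ (g₀ : G) w) := by
      intro w hw
      rw [← hc _ (hWQ _ h₀.2 _ (hWQ _ g₀.2 _ hw)), ← HH.rho_mul, ← HH.rho_mul, ← HH.rho_mul]
      congr 2; group
    refine ⟨Units.mk0 c hc0, ?_⟩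
    intro g h hg hh w hw
    have hr : (g : G) * (g₀ : G)⁻¹ ∈ R := (S.eq_iff g g₀).1 (Multiplicative.toAdd.injective (hg.trans hg₀.symm))
    have hs : (h : G) * (h₀ : G)⁻¹ ∈ R := (S.eq_iff h h₀).1 (Multiplicative.toAdd.injective (hh.trans hh₀.symm))
    obtain ⟨r, hrd⟩ : ∃ r, r = (g : G) * (g₀ : G)⁻¹ := ⟨_, rfl⟩
    obtain ⟨s, hsd⟩ : ∃ s, s = (h : G) * (h₀ : G)⁻¹ := ⟨_, rfl⟩
    rw [← hrd] at hr
    rw [← hsd] at hs
    have hg1 : (g : G) = r * g₀ := by rw [hrd]; group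
    have hh1 : (h : G) = s * h₀ := by rw [hsd]; group
    rw [hg1, hh1, HH.rho_mul, HH.rho_mul, HH.rho_mul, HH.rho_mul, Units.val_mk0,
      ← hs.2 _ g₀.2 _ (hWQ _ h₀.2 _ hw), h0 w hw, map_smul, map_smul,
      ← hr.2 _ h₀.2 _ (hWQ _ g₀.2 _ hw), hr.2 s hs.1 _ (hWQ _ h₀.2 _ (hWQ _ g₀.2 _ hw))]
  choose β hβ using hex
  have hβ' : ∀ g h : Q, ∀ w ∈ W, ρ (g : G) (ρ (h : G) w) =
      (β (S.π g).toAdd (S.π h).toAdd : K) • ρ (h : G) (ρ (g : G) w) := fun g h => hβ _ _ g h rfl rfl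
  refine ⟨M, hM1, hM2, S.finite, S, β, hω, hWQ, hRs, ?_, ?_, ?_⟩
  · refine ⟨?_, ?_, ?_, ?_⟩
    · intro a b c
      obtain ⟨g, rfl⟩ := S.exists_rep a
      obtain ⟨g', rfl⟩ := S.exists_rep b
      obtain ⟨h, rfl⟩ := S.exists_rep c
      have h1 := hβ' (g * g') h w₀ hw₀
      have h2 : (S.π (g * g')).toAdd = (S.π g).toAdd + (S.π g').toAdd := by rw [map_mul]; rfl
      rw [h2, Subgroup.coe_mul, HH.rho_mul, HH.rho_mul, hβ' g' h w₀ hw₀, map_smul,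
        hβ' g h _ (hWQ _ g'.2 _ hw₀), smul_smul] at h1
      have h3 := smul_cancel' (c := β (S.π g').toAdd (S.π h).toAdd * β (S.π g).toAdd (S.π h).toAdd)
        (c' := β ((S.π g).toAdd + (S.π g').toAdd) (S.π h).toAdd)
        (rho_ne (ρ := ρ) (g := (h : G)) (rho_ne (ρ := ρ) (g := (g : G)) (rho_ne (ρ := ρ) (g := (g' : G)) hw₀0))) (by
          rw [Units.val_mul]; exact h1)
      rw [← h3, mul_comm]
    · intro a b c
      obtain ⟨g, rfl⟩ := S.exists_rep a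
      obtain ⟨g', rfl⟩ := S.exists_rep b
      obtain ⟨h, rfl⟩ := S.exists_rep c
      have h1 := hβ' g (g' * h) w₀ hw₀
      have h2 : (S.π (g' * h)).toAdd = (S.π g').toAdd + (S.π h).toAdd := by rw [map_mul]; rfl
      rw [h2, Subgroup.coe_mul, HH.rho_mul, HH.rho_mul, hβ' g g' _ (hWQ _ h.2 _ hw₀), hβ' g h w₀ hw₀, map_smul,
        smul_smul] at h1
      have h3 := smul_cancel' (c := β (S.π g).toAdd (S.π g').toAdd * β (S.π g).toAdd (S.π h).toAdd)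
        (c' := β (S.π g).toAdd ((S.π g').toAdd + (S.π h).toAdd))
        (rho_ne (ρ := ρ) (g := (g' : G)) (rho_ne (ρ := ρ) (g := (h : G)) (rho_ne (ρ := ρ) (g := (g : G)) hw₀0))) (by
          rw [Units.val_mul]; exact h1)
      exact h3.symm
    · intro a
      obtain ⟨g, rfl⟩ := S.exists_rep a
      have h1 := hβ' g g w₀ hw₀
      exact Units.val_eq_one.1 (smul_eq_self (rho_ne (rho_ne hw₀0)) h1.symm)
    · intro a ha
      obtain ⟨g, rfl⟩ := S.exists_rep a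
      have h1 : (g : G) ∈ R := by
        refine ⟨g.2, fun h hh w hw => ?_⟩
        have h2 := hβ' g ⟨h, hh⟩ w hw
        rw [ha, Units.val_one, one_smul] at h2
        exact h2
      exact (S.ker g).2 h1
  · intro y a b
    obtain ⟨g, rfl⟩ := S.exists_rep a
    obtain ⟨h, rfl⟩ := S.exists_rep b
    rw [← S.equiv y g, ← S.equiv y h]
    have hy' : ∀ w ∈ W, ρ (y : G)⁻¹ w ∈ W := hWY _ (Y.inv_mem y.2)
    have h1 := hβ' (BG3.cjHom hYQ y g) (BG3.cjHom hYQ y h) w₀ hw₀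
    change ρ ((y : G) * g * (y : G)⁻¹) (ρ ((y : G) * h * (y : G)⁻¹) w₀) =
      (β (S.π (BG3.cjHom hYQ y g)).toAdd (S.π (BG3.cjHom hYQ y h)).toAdd : K) •
        ρ ((y : G) * h * (y : G)⁻¹) (ρ ((y : G) * g * (y : G)⁻¹) w₀) at h1
    have h2 := congrArg (ρ (y : G)) (hβ' g h _ (hy' w₀ hw₀))
    have e1 : ρ ((y : G) * g * (y : G)⁻¹) (ρ ((y : G) * h * (y : G)⁻¹) w₀) =
        ρ (y : G) (ρ (g : G) (ρ (h : G) (ρ (y : G)⁻¹ w₀))) := by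
      simp only [← HH.rho_mul]; congr 2; group
    have e2 : ρ ((y : G) * h * (y : G)⁻¹) (ρ ((y : G) * g * (y : G)⁻¹) w₀) =
        ρ (y : G) (ρ (h : G) (ρ (g : G) (ρ (y : G)⁻¹ w₀))) := by
      simp only [← HH.rho_mul]; congr 2; group
    rw [e1, h2, map_smul, e2] at h1
    exact (smul_cancel' (rho_ne (rho_ne (rho_ne (rho_ne hw₀0)))) h1).symm
  · intro g h w hw
    have h1 := hβ' g h (ρ (g : G)⁻¹ (ρ (h : G)⁻¹ w)) (hWQ _ (Q.inv_mem g.2) _ (hWQ _ (Q.inv_mem h.2) _ hw))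
    rw [HH.rho_apply_inv, HH.rho_apply_inv] at h1
    rw [← h1, ← HH.rho_mul, ← HH.rho_mul, ← HH.rho_mul]

end Cfsg.Agent.H49.Gr
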