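import Mathlib
import Cfsg.Agent.H49.Gr.W2
import Cfsg.Agent.H49.Gr.N
import Cfsg.Agent.H49.Gr.E
import Cfsg.Agent.Cop.MinAct

set_option autoImplicit false
set_option linter.style.haveILetI false
set_option linter.unusedSectionVars false
set_option linter.unusedVariables false

/-!
The odd section: the contradiction.
-/

namespace Cfsg.Agent.H49.Gr

open Module Subgroup
open scoped BigOperators commutatorElement

universe u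

variable {K : Type*} [Field K] [IsAlgClosed K] [CharP K 2] {V : Type*} [AddCommGroup V] [Module K V]
  [FiniteDimensional K V] {H : Type u} [Group H] [Finite H] {ρ : Representation K H V}

/-- stabilizer of a weight -/
def stab (A Q : Subgroup H) (hAQ : A ≤ normalizer (Q : Set H)) (ω : H → K) : Subgroup H where
  carrier := {a | a ∈ A ∧ ∀ g ∈ Q, ω (a⁻¹ * g * a) = ω g}
  one_mem' := ⟨A.one_mem, fun g _ => by simp⟩
  mul_mem' := by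
    rintro a b ⟨ha, ha'⟩ ⟨hb, hb'⟩
    refine ⟨A.mul_mem ha hb, fun g hg => ?_⟩
    have h1 : (a * b)⁻¹ * g * (a * b) = b⁻¹ * (a⁻¹ * g * a) * b := by group
    rw [h1, hb' _ ((mem_normalizer_iff''.1 (hAQ ha) g).1 hg), ha' g hg]
  inv_mem' := by
    rintro a ⟨ha, ha'⟩
    refine ⟨A.inv_mem ha, fun g hg => ?_⟩
    have h1 := ha' _ ((mem_normalizer_iff.1 (hAQ ha) g).1 hg)
    have h2 : a⁻¹ * (a * g * a⁻¹) * a = g := by group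
    rw [h2] at h1
    rw [inv_inv]; exact h1.symm

theorem mem_stab {A Q : Subgroup H} {hAQ : A ≤ normalizer (Q : Set H)} {ω : H → K} {a : H} :
    a ∈ stab A Q hAQ ω ↔ a ∈ A ∧ ∀ g ∈ Q, ω (a⁻¹ * g * a) = ω g := Iff.rfl

/-- the pointwise stabilizer of the weights -/
def Kz (ρ : Representation K H V) (A Q : Subgroup H) (hAQ : A ≤ normalizer (Q : Set H)) : Subgroup H where
  carrier := {a | a ∈ A ∧ ∀ ω : H → K, wt ρ Q ω ≠ ⊥ → a ∈ stab A Q hAQ ω}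
  one_mem' := ⟨A.one_mem, fun ω _ => one_mem _⟩
  mul_mem' := fun ha hb => ⟨A.mul_mem ha.1 hb.1, fun ω hω => mul_mem (ha.2 ω hω) (hb.2 ω hω)⟩
  inv_mem' := fun ha => ⟨A.inv_mem ha.1, fun ω hω => inv_mem (ha.2 ω hω)⟩

theorem mem_Kz {A Q : Subgroup H} {hAQ : A ≤ normalizer (Q : Set H)} {a : H} :
    a ∈ Kz ρ A Q hAQ ↔ a ∈ A ∧ ∀ ω : H → K, wt ρ Q ω ≠ ⊥ → a ∈ stab A Q hAQ ω := Iff.rfl

theorem Kz_norm {A Q : Subgroup H} {hAQ : A ≤ normalizer (Q : Set H)} {c : H} (hc : c ∈ A) {a : H}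
    (ha : a ∈ Kz ρ A Q hAQ) : c * a * c⁻¹ ∈ Kz ρ A Q hAQ := by
  rw [mem_Kz] at ha ⊢
  refine ⟨A.mul_mem (A.mul_mem hc ha.1) (A.inv_mem hc), fun ω hω => ?_⟩
  refine ⟨A.mul_mem (A.mul_mem hc ha.1) (A.inv_mem hc), fun g hg => ?_⟩
  obtain ⟨w, hw, hw0⟩ := (Submodule.ne_bot_iff _).1 hω
  have h1 := wt_conj (hAQ (A.inv_mem hc)) hw
  have h2 := (ha.2 (fun g => ω ((c⁻¹)⁻¹ * g * c⁻¹)) (by
    rw [Submodule.ne_bot_iff]
    exact ⟨_, h1, rho_ne hw0⟩)).2 (c⁻¹ * g * c) ((mem_normalizer_iff''.1 (hAQ hc) g).1 hg)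
  have e1 : (c⁻¹)⁻¹ * (a⁻¹ * (c⁻¹ * g * c) * a) * c⁻¹ = (c * a * c⁻¹)⁻¹ * g * (c * a * c⁻¹) := by group
  have e2 : (c⁻¹)⁻¹ * (c⁻¹ * g * c) * c⁻¹ = g := by group
  change ω ((c⁻¹)⁻¹ * (a⁻¹ * (c⁻¹ * g * c) * a) * c⁻¹) = ω ((c⁻¹)⁻¹ * (c⁻¹ * g * c) * c⁻¹) at h2
  rw [e1, e2] at h2
  exact h2

variable {q : ℕ} [hq : Fact q.Prime]

/-- **The contradiction in the special case** for a fixed weight. -/
theorem local_contra {x : H} {n : ℕ} {A B F Q : Subgroup H} (C : Cfg x n A B F) (hq2 : q ≠ 2) (hQq : IsPGroup q Q)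
    (hAQ : A ≤ normalizer (Q : Set H)) (hexp : ∀ g : H, (∃ k, g ^ 2 ^ k = 1) → g ^ 2 ^ n = 1)
    (hnil : (ρ x - 1) ^ (2 ^ n - 1) = 0)
    (hcl : ∀ g ∈ Q, ∀ h ∈ Q, ∀ k ∈ Q, (g * h * g⁻¹ * h⁻¹) * k = k * (g * h * g⁻¹ * h⁻¹))
    (hpow : ∀ g ∈ Q, ∀ k ∈ Q, g ^ q * k = k * g ^ q)
    {ω : H → K} (hω : wt ρ Q ω ≠ ⊥) (hB : B ≤ stab A Q hAQ ω) {b₀ : H} (hb₀ : b₀ ∈ B)
    (hnt : ∃ g ∈ Q, (Nk x b₀ (2 ^ (n - 2)) * x ^ 2 ^ (n - 1) * (Nk x b₀ (2 ^ (n - 2)))⁻¹ * (x ^ 2 ^ (n - 1))⁻¹) * g *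
      (Nk x b₀ (2 ^ (n - 2)) * x ^ 2 ^ (n - 1) * (Nk x b₀ (2 ^ (n - 2)))⁻¹ * (x ^ 2 ^ (n - 1))⁻¹)⁻¹ * g⁻¹ ∉
        Rw ρ Q (wt ρ Q ω) wt_invQ) : False := by
  classical
  have hQK : (Nat.card Q : K) ≠ 0 := by
    obtain ⟨k, hk⟩ := IsPGroup.iff_card.1 hQq
    rw [hk, Nat.cast_pow]
    apply pow_ne_zero
    intro h0
    rw [CharP.cast_eq_zero_iff K 2] at h0
    exact hq2 ((Nat.prime_dvd_prime_iff_eq Nat.prime_two hq.out).1 h0).symm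
  have hxn : x ^ 2 ^ n = 1 := hexp x C.x2
  obtain ⟨j, hjn, hjs, hjnil⟩ := orbit hω (hAQ C.xA) hxn hnil
  set Y := stab A Q hAQ ω with hYdef
  have hYA : Y ≤ A := fun a ha => ha.1
  have hYQ : Y ≤ normalizer (Q : Set H) := hYA.trans hAQ
  have hx₀Y : x ^ 2 ^ j ∈ Y := ⟨A.pow_mem C.xA _, hjs⟩
  obtain ⟨M, _, _, _, S, β, hW⟩ := exists_onW (q := q) (Y := Y) hω hQK hcl hpow hYQ (fun a ha => ha.2)
  have hyx₀ : x ^ 2 ^ (n - 1) = (x ^ 2 ^ j) ^ 2 ^ (n - j - 1) := by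
    rw [← pow_mul, ← pow_add]; congr 2; omega
  have hyY : x ^ 2 ^ (n - 1) ∈ Y := by rw [hyx₀]; exact Y.pow_mem hx₀Y _
  have hBx : ∀ b ∈ B, x * b * x⁻¹ ∈ B := fun b hb => (mem_normalizer_iff.1 (C.AB C.xA) b).1 hb
  have hBx' : ∀ b ∈ B, x⁻¹ * b * x ∈ B := fun b hb => (mem_normalizer_iff''.1 (C.AB C.xA) b).1 hb
  have hFx : ∀ b ∈ F, x * b * x⁻¹ ∈ F := fun b hb => (mem_normalizer_iff.1 (C.AF C.xA) b).1 hb
  have hFx' : ∀ b ∈ F, x⁻¹ * b * x ∈ F := fun b hb => (mem_normalizer_iff''.1 (C.AF C.xA) b).1 hb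
  have hNB : ∀ b ∈ B, ∀ k, Nk x b k ∈ B := fun b hb k => Nk_mem hBx' hb k
  let N₀ : Y := ⟨Nk x b₀ (2 ^ (n - 2)), hB (hNB b₀ hb₀ _)⟩
  let y' : Y := ⟨x ^ 2 ^ (n - 1), hyY⟩
  let x' : Y := ⟨x ^ 2 ^ j, hx₀Y⟩
  set w₀ : Y := N₀ * y' * N₀⁻¹ * y'⁻¹ with hw₀
  have hw₀v : (w₀ : H) = Nk x b₀ (2 ^ (n - 2)) * x ^ 2 ^ (n - 1) * (Nk x b₀ (2 ^ (n - 2)))⁻¹ * (x ^ 2 ^ (n - 1))⁻¹ := rfl
  have hw₀1 : S.ρ w₀ ≠ 1 := by
    intro h0
    obtain ⟨g, hg, hgR⟩ := hnt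
    rw [← hw₀v] at hgR
    exact hgR ((S.rho_eq_iff w₀).1 (fun v => by rw [h0]; rfl) g hg)
  have hy1 : S.ρ y' ≠ 1 := by
    intro h0
    apply hw₀1
    have h1 : S.ρ y'⁻¹ = 1 := by
      have h2 : S.ρ y' * S.ρ y'⁻¹ = 1 := by rw [← map_mul, mul_inv_cancel, map_one]
      rwa [h0, one_mul] at h2
    rw [hw₀, map_mul, map_mul, map_mul, h0, h1, mul_one, mul_one, ← map_mul, mul_inv_cancel, map_one]
  have hynt : ∃ m, S.ρ y' m ≠ m := by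
    by_contra hcon
    push Not at hcon
    exact hy1 (LinearMap.ext hcon)
  -- orders
  have hyH : x ^ 2 ^ (n - 1) ≠ 1 := by
    intro h0
    apply hy1
    have : y' = 1 := Subtype.ext h0
    rw [this, map_one]
  have hox : orderOf x = 2 ^ n := by
    obtain ⟨n', rfl⟩ : ∃ n', n = n' + 1 := ⟨n - 1, by omega⟩
    exact orderOf_eq_prime_pow hyH hxn
  set r := n - j with hr
  have hr1 : 1 ≤ r := by omega
  have hox₀ : orderOf ((x' : Y) : H) = 2 ^ r := by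
    change orderOf (x ^ 2 ^ j) = 2 ^ r
    rw [orderOf_pow_of_dvd (by positivity) (by rw [hox]; exact pow_dvd_pow 2 hjn.le), hox,
      Nat.pow_div hjn.le (by norm_num)]
  obtain ⟨hD1, hD2, hq1⟩ := lemmaD S hW hQq hq2 (x := x') (r := r) hr1 hox₀ (by
      intro w hw g hg
      have h0 := wt_conj (hYQ hx₀Y) hw g hg
      change cls ρ Q g (ρ (x ^ 2 ^ j) w) = ω g • ρ (x ^ 2 ^ j) w
      rw [h0]
      congr 1
      exact hjs g hg) hjnil (y := y') (by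
      apply Subtype.ext
      change x ^ 2 ^ (n - 1) = (x ^ 2 ^ j) ^ 2 ^ (r - 1)
      rw [hyx₀]) hynt
  have hr2 : 2 ≤ r := by
    by_contra hcon
    have h1 : r = 1 := by omega
    rw [h1] at hq1
    have := hq.out.two_le
    omega
  set k := 2 ^ (r - 2) with hk
  have h4k : 4 * k = 2 ^ r := by
    rw [hk, show (4 : ℕ) = 2 ^ 2 by norm_num, ← pow_add]; congr 1; omega
  have h2k : 2 * k = 2 ^ (r - 1) := by
    rw [hk, ← pow_succ']; congr 1; omega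
  have hyx' : y' = x' ^ (2 * k) := by
    apply Subtype.ext
    change x ^ 2 ^ (n - 1) = (x ^ 2 ^ j) ^ (2 * k)
    rw [hyx₀, h2k]
  have hx'c : x' ^ (4 * k) = 1 := by
    rw [h4k]
    apply Subtype.ext
    change (x ^ 2 ^ j) ^ 2 ^ r = 1
    rw [← pow_mul, ← pow_add, show j + r = n by omega, hxn]
  -- x b has order dividing 2 ^ n
  have hxb : ∀ b ∈ B, (x * b) ^ 2 ^ n = 1 := by
    intro b hb
    apply hexp
    have h1 : Nk x b (2 ^ n) ∈ B := hNB b hb _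
    have h2 := mul_Nk x b (2 ^ n)
    rw [hxn, one_mul] at h2
    rw [h2] at h1
    obtain ⟨m, hm⟩ := C.two ⟨_, h1⟩
    have h3 := congrArg Subtype.val hm
    change ((x * b) ^ 2 ^ n) ^ 2 ^ m = 1 at h3
    exact ⟨n + m, by rw [pow_add, pow_mul, h3]⟩
  have hxcomm : ∀ m : ℕ, x ^ m * x = x * x ^ m := fun m => by rw [← pow_succ, ← pow_succ']
  have hxBk : ∀ (m : ℕ) (T : Subgroup H), (∀ b ∈ T, x * b * x⁻¹ ∈ T) → ∀ b ∈ T, x ^ m * b * (x ^ m)⁻¹ ∈ T := by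
    intro m T hT
    induction m with
    | zero => intro b hb; simpa using hb
    | succ m ih =>
      intro b hb
      have h1 := hT _ (ih b hb)
      have e : x ^ (m + 1) * b * (x ^ (m + 1))⁻¹ = x * (x ^ m * b * (x ^ m)⁻¹) * x⁻¹ := by
        rw [pow_succ']; group
      rw [e]; exact h1
  have hyB : ∀ b ∈ B, x ^ 2 ^ (n - 1) * b * (x ^ 2 ^ (n - 1))⁻¹ ∈ B := hxBk _ B hBx
  have hpw : ∀ b ∈ B, (x ^ 2 ^ j * Nk x b (2 ^ j)) ^ (4 * k) = 1 := by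
    intro b hb
    rw [mul_Nk, h4k, ← pow_mul, ← pow_add, show j + r = n by omega, hxb b hb]
  have hcommM : ∀ b (hb : b ∈ B), ∀ m, S.ρ y' (S.ρ ⟨Nk x b (2 ^ j), hB (hNB b hb _)⟩ m) =
      S.ρ ⟨Nk x b (2 ^ j), hB (hNB b hb _)⟩ (S.ρ y' m) := by
    intro b hb
    obtain ⟨z, hz, hzN⟩ := Nk_comm C.FB hBx' hFx' C.cen C.com (y := x ^ 2 ^ (n - 1)) (hxcomm _) hyB hb (2 ^ j)
    have hzY : z ∈ Y := hB (C.FB hz)
    apply coreE (ρ := S.ρ) hW.pair hW.inv hq2 (x := x') (y := y') (k := k) hyx' hx'c hD1 hD2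
      (B := B.subgroupOf Y) (F := F.subgroupOf Y) (fun g hg => C.FB hg)
      (fun z hz => Subtype.ext (C.sq1 z hz)) (fun z hz b hb => Subtype.ext (C.cen z hz b hb))
      (fun z hz => hxBk (2 ^ j) F hFx z hz) (fun b hb => C.sq b hb) (fun b hb => hxBk (2 ^ j) B hBx b hb)
      (ν := ⟨Nk x b (2 ^ j), hB (hNB b hb _)⟩) (hNB b hb _)
      (Subtype.ext (hpw b hb)) (z₀ := ⟨z, hzY⟩) hz
    apply Subtype.ext
    change (x ^ 2 ^ j * (x ^ 2 ^ (n - 1) * Nk x b (2 ^ j) * (x ^ 2 ^ (n - 1))⁻¹ * (Nk x b (2 ^ j))⁻¹ * z)) ^ (4 * k) = 1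
    rw [← hzN]
    exact hpw _ (B.mul_mem (hyB b hb) (B.inv_mem hb))
  -- the conclusion
  set κ := S.ρ.ker with hκ
  let Cy : Subgroup Y := (Subgroup.centralizer {(QuotientGroup.mk' κ) y'}).comap (QuotientGroup.mk' κ)
  have hCy : ∀ g : Y, g ∈ Cy ↔ g * y' * g⁻¹ * y'⁻¹ ∈ κ := by
    intro g
    change QuotientGroup.mk' κ g ∈ Subgroup.centralizer {(QuotientGroup.mk' κ) y'} ↔ _
    have e1 : g * y' * g⁻¹ * y'⁻¹ = (g * y') * (y' * g)⁻¹ := by group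
    have e2 : g * y' * g⁻¹ * y'⁻¹ ∈ κ ↔ QuotientGroup.mk' κ ((g * y') * (y' * g)⁻¹) = 1 := by
      rw [e1]; exact (QuotientGroup.eq_one_iff _).symm
    rw [e2, map_mul (QuotientGroup.mk' κ) (g * y'), map_inv, mul_inv_eq_one, mem_centralizer_singleton_iff,
      map_mul, map_mul]
  have hx'C : x' ∈ Cy := by
    rw [hCy]
    have : x' * y' * x'⁻¹ * y'⁻¹ = 1 := by
      rw [hyx', ← pow_succ', pow_succ]; group
    rw [this]; exact κ.one_mem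
  have hνC : (⟨Nk x b₀ (2 ^ j), hB (hNB b₀ hb₀ _)⟩ : Y) ∈ Cy := by
    rw [hCy]
    set ν : Y := ⟨Nk x b₀ (2 ^ j), hB (hNB b₀ hb₀ _)⟩ with hν
    rw [hκ, MonoidHom.mem_ker]
    have h1 : S.ρ (ν * y') = S.ρ (y' * ν) := by
      apply LinearMap.ext
      intro m
      rw [rmul, rmul]
      exact (hcommM b₀ hb₀ m).symm
    have e1 : ν * y' * ν⁻¹ * y'⁻¹ = (ν * y') * (y' * ν)⁻¹ := by group
    rw [e1, map_mul, h1, ← map_mul, mul_inv_cancel, map_one]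
  have hN₀C : N₀ ∈ Cy := by
    have h1 : N₀ = (x' ^ k)⁻¹ * (x' * ⟨Nk x b₀ (2 ^ j), hB (hNB b₀ hb₀ _)⟩) ^ k := by
      apply Subtype.ext
      change Nk x b₀ (2 ^ (n - 2)) = ((x ^ 2 ^ j) ^ k)⁻¹ * (x ^ 2 ^ j * Nk x b₀ (2 ^ j)) ^ k
      rw [mul_Nk]
      unfold Nk
      rw [← pow_mul, ← pow_mul, hk, ← pow_add, show j + (r - 2) = n - 2 by omega]
    rw [h1]
    exact mul_mem (inv_mem (pow_mem hx'C _)) (pow_mem (mul_mem hx'C hνC) _)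
  exact hw₀1 ((hCy N₀).1 hN₀C)

end Cfsg.Agent.H49.Gr
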