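import Mathlib
import Cfsg.Agent.H49.Gr.QL

set_option autoImplicit false
set_option linter.style.haveILetI false
set_option linter.unusedSectionVars false
set_option linter.unusedVariables false

/-!
The odd section: the contradiction for a minimal section.
-/

namespace Cfsg.Agent.H49.Gr

open Module Subgroup
open scoped BigOperators commutatorElement

universe u

variable {K : Type*} [Field K] [IsAlgClosed K] [CharP K 2] {V : Type*} [AddCommGroup V] [Module K V]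
  [FiniteDimensional K V] {H : Type u} [Group H] [Finite H] {ρ : Representation K H V}
  {q : ℕ} [hq : Fact q.Prime]

theorem cfg_contra {x : H} {n : ℕ} {A B F Q : Subgroup H} (C : Cfg x n A B F) (hq2 : q ≠ 2) (hQq : IsPGroup q Q)
    (hAQ : A ≤ normalizer (Q : Set H)) (hexp : ∀ g : H, (∃ k, g ^ 2 ^ k = 1) → g ^ 2 ^ n = 1)
    (hnil : (ρ x - 1) ^ (2 ^ n - 1) = 0) (hinj : Function.Injective ρ)
    (hnt : ⁅Q, B⁆ ≠ ⊥)
    (hmin : ∀ U : Subgroup H, U < Q → A ≤ normalizer (U : Set H) → ⁅U, B⁆ = ⊥) : False := by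
  classical
  have hQK : (Nat.card Q : K) ≠ 0 := by
    obtain ⟨k, hk⟩ := IsPGroup.iff_card.1 hQq
    rw [hk, Nat.cast_pow]
    apply pow_ne_zero
    intro h0
    rw [CharP.cast_eq_zero_iff K 2] at h0
    exact hq2 ((Nat.prime_dvd_prime_iff_eq Nat.prime_two hq.out).1 h0).symm
  have hxn : x ^ 2 ^ n = 1 := hexp x C.x2
  have hBq : (Nat.card B).Coprime q := by
    obtain ⟨k, hk⟩ := IsPGroup.iff_card.1 C.two
    rw [hk]
    exact Nat.Coprime.pow_left _ ((Nat.coprime_primes Nat.prime_two hq.out).2 hq2.symm)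
  have hstr := Cop.min_structure hQq hAQ C.BA C.AB hBq hnt hmin
  obtain ⟨b₀, hb₀, hw₀F⟩ := C.mov
  set y := x ^ 2 ^ (n - 1) with hy
  set N := Nk x b₀ (2 ^ (n - 2)) with hN
  set w₀ := N * y * N⁻¹ * y⁻¹ with hw₀
  have hyA : y ∈ A := pow_mem C.xA _
  have hBx' : ∀ b ∈ B, x⁻¹ * b * x ∈ B := fun b hb => (mem_normalizer_iff''.1 (C.AB C.xA) b).1 hb
  have hNB : N ∈ B := Nk_mem hBx' hb₀ _
  have hw₀B : w₀ ∈ B := by
    have h1 : w₀ = N * (y * N⁻¹ * y⁻¹) := by rw [hw₀]; group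
    rw [h1]
    exact B.mul_mem hNB ((mem_normalizer_iff.1 (C.AB hyA) _).1 (B.inv_mem hNB))
  -- y fixes all weights
  set K₀ := Kz ρ A Q hAQ with hK₀
  have hyK : y ∈ K₀ := by
    refine ⟨hyA, fun ω hω => ?_⟩
    obtain ⟨j, hjn, hjs, -⟩ := orbit hω (hAQ C.xA) hxn hnil
    have h1 : x ^ 2 ^ j ∈ stab A Q hAQ ω := ⟨A.pow_mem C.xA _, hjs⟩
    have h2 : y = (x ^ 2 ^ j) ^ 2 ^ (n - j - 1) := by
      rw [hy, ← pow_mul, ← pow_add]; congr 2; omega
    rw [h2]; exact pow_mem h1 _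
  have hw₀K : w₀ ∈ K₀ := mul_mem (Kz_norm (C.BA hNB) hyK) (inv_mem hyK)
  have hBK : B ≤ K₀ := by
    rcases C.irr (K₀ ⊓ B) inf_le_right (by
      intro c hc
      rw [mem_normalizer_iff]
      intro g
      constructor
      · rintro ⟨h1, h2⟩
        exact ⟨Kz_norm hc h1, (mem_normalizer_iff.1 (C.AB hc) g).1 h2⟩
      · rintro ⟨h1, h2⟩
        refine ⟨?_, (mem_normalizer_iff.1 (C.AB hc) g).2 h2⟩
        have h3 := Kz_norm (A.inv_mem hc) h1
        have h4 : c⁻¹ * (c * g * c⁻¹) * c⁻¹⁻¹ = g := by group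
        rwa [h4] at h3) with h1 | h1
    · rw [← h1]; exact inf_le_left
    · exact absurd (h1 ⟨hw₀K, hw₀B⟩) hw₀F
  have hBω : ∀ b ∈ B, ∀ ω : H → K, wt ρ Q ω ≠ ⊥ → ∀ g ∈ Q, ω (b⁻¹ * g * b) = ω g := fun b hb ω hω =>
    ((hBK hb).2 ω hω).2
  have hcent : ∀ g ∈ Q, (∀ b ∈ B, b * g = g * b) → g ∈ Q ⊓ centralizer (B : Set H) := fun g hg h =>
    ⟨hg, mem_centralizer_iff.2 h⟩
  have hfaith : ∀ g : H, ρ g = 1 → g = 1 := fun g hg => hinj (by rw [hg, map_one])
  rcases hstr with ⟨hel, hC⟩ | ⟨hsp, hnc, hZ⟩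
  · -- abelian case
    have hab : ∀ g ∈ Q, ∀ h ∈ Q, g * h = h * g := fun g hg h hh =>
      congrArg Subtype.val (hel.1.1.1 ⟨g, hg⟩ ⟨h, hh⟩)
    apply hnt
    rw [commutator_eq_bot_iff_le_centralizer]
    intro g hg
    rw [mem_centralizer_iff]
    intro b hb
    have hbg : b * g * b⁻¹ ∈ Q := (mem_normalizer_iff.1 (hAQ (C.BA hb)) g).1 hg
    have hz : b * g * b⁻¹ * g⁻¹ ∈ Q := Q.mul_mem hbg (Q.inv_mem hg)
    have h1 : ρ (b * g * b⁻¹ * g⁻¹) = 1 := by
      by_contra hne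
      obtain ⟨ω, hω, w, hw, hwne⟩ := exists_wt hQK hz (fun k hk => hab _ hz k hk) hne
      apply hwne
      letI := Fintype.ofFinite Q
      have h2 : ∀ r ∈ Q, ∀ v ∈ wt ρ Q ω, (Nat.card Q : K) • ρ r v = ω r • v := by
        intro r hr v hv
        rw [← hv r hr, cls_eq, LinearMap.sum_apply]
        have h3 : ∀ k : Q, ρ ((k : H) * r * (k : H)⁻¹) v = ρ r v := by
          intro k
          rw [hab k k.2 r hr]; congr 2; group
        rw [Finset.sum_congr rfl (fun k _ => h3 k), Finset.sum_const, Finset.card_univ, ← Nat.card_eq_fintype_card,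
          ← Nat.cast_smul_eq_nsmul K]
      have h4 : ρ (b * g * b⁻¹) (ρ g⁻¹ w) = ρ g (ρ g⁻¹ w) := by
        have h5 : ρ g⁻¹ w ∈ wt ρ Q ω := wt_invQ _ (Q.inv_mem hg) _ hw
        have h6 := h2 _ hbg _ h5
        have h7 := h2 g hg _ h5
        have h8 := hBω b hb ω hω _ hbg
        have h9 : b⁻¹ * (b * g * b⁻¹) * b = g := by group
        rw [h9] at h8
        rw [← h8, ← h7] at h6
        have h10 := congrArg (fun v => (Nat.card Q : K)⁻¹ • v) h6
        simp only [smul_smul, inv_mul_cancel₀ hQK, one_smul] at h10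
        exact h10
      rw [HH.rho_mul, h4, HH.rho_apply_inv]
    have h2 := hfaith _ h1
    have h3 : b * g = (b * g * b⁻¹ * g⁻¹) * (g * b) := by group
    rw [h3, h2, one_mul]
  · -- special case
    have hcen : ∀ g ∈ Q, (∀ k ∈ Q, g * k = k * g) → g ∈ Q ⊓ centralizer (B : Set H) := by
      intro g hg h
      rw [← hZ]
      exact ⟨⟨g, hg⟩, mem_center_iff.2 (fun k => Subtype.ext (h k k.2).symm), rfl⟩
    have hZc : ∀ g : Q, g ∈ center Q → ∀ k ∈ Q, (g : H) * k = k * g := fun g hg k hk =>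
      (congrArg Subtype.val (mem_center_iff.1 hg ⟨k, hk⟩)).symm
    have hcl : ∀ g ∈ Q, ∀ h ∈ Q, ∀ k ∈ Q, (g * h * g⁻¹ * h⁻¹) * k = k * (g * h * g⁻¹ * h⁻¹) := by
      intro g hg h hh k hk
      have h4 : ⁅(⟨g, hg⟩ : Q), (⟨h, hh⟩ : Q)⁆ ∈ center Q := by
        rw [← hsp.2.2, _root_.commutator_def]
        exact commutator_mem_commutator (mem_top _) (mem_top _)
      exact hZc _ h4 k hk
    have hpow : ∀ g ∈ Q, ∀ k ∈ Q, g ^ q * k = k * g ^ q := by
      intro g hg k hk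
      have h4 : (⟨g, hg⟩ : Q) ^ q ∈ center Q := by
        rw [← hsp.2.1]
        exact Solv.pow_mem_frattini_of_pGroup hQq ⟨g, hg⟩
      exact hZc _ h4 k hk
    by_cases hex : ∃ ω : H → K, wt ρ Q ω ≠ ⊥ ∧ ∃ g ∈ Q, w₀ * g * w₀⁻¹ * g⁻¹ ∉ Rw ρ Q (wt ρ Q ω) wt_invQ
    · obtain ⟨ω, hω, hg⟩ := hex
      exact local_contra C hq2 hQq hAQ hexp hnil hcl hpow hω (fun b hb => (hBK hb).2 ω hω) hb₀ hg
    · push Not at hex
      -- w₀ centralizes Q
      have h1 : ∀ g ∈ Q, w₀ * g * w₀⁻¹ * g⁻¹ ∈ Q ⊓ centralizer (B : Set H) := by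
        intro g hg
        have hu : w₀ * g * w₀⁻¹ * g⁻¹ ∈ Q :=
          Q.mul_mem ((mem_normalizer_iff.1 (hAQ (C.BA hw₀B)) g).1 hg) (Q.inv_mem hg)
        apply hcen _ hu
        intro k hk
        set v := w₀ * g * w₀⁻¹ * g⁻¹ with hv
        have hz : v * k * v⁻¹ * k⁻¹ ∈ Q := Q.mul_mem (Q.mul_mem (Q.mul_mem hu hk) (Q.inv_mem hu)) (Q.inv_mem hk)
        have h2 : ρ (v * k * v⁻¹ * k⁻¹) = 1 := by
          by_contra hne
          obtain ⟨ω, hω, w, hw, hwne⟩ := exists_wt hQK hz (hcl v hu k hk) hne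
          apply hwne
          have h3 := (hex ω hω g hg).2 k hk (ρ v⁻¹ (ρ k⁻¹ w)) (wt_invQ _ (Q.inv_mem hu) _ (wt_invQ _ (Q.inv_mem hk) _ hw))
          rw [← hv, HH.rho_apply_inv, HH.rho_apply_inv] at h3
          rw [HH.rho_mul, HH.rho_mul, HH.rho_mul, h3]
        have h3 := hfaith _ h2
        have h4 : v * k = (v * k * v⁻¹ * k⁻¹) * (k * v) := by group
        rw [h4, h3, one_mul]
      have h2 : ∀ g ∈ Q, w₀ * g * w₀⁻¹ * g⁻¹ = 1 := by
        intro g hg
        obtain ⟨hu, huc⟩ := h1 g hg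
        set v := w₀ * g * w₀⁻¹ * g⁻¹ with hv
        have hc : w₀ * v = v * w₀ := (mem_centralizer_iff.1 huc) w₀ hw₀B
        have h3 : ∀ m : ℕ, w₀ ^ m * g * (w₀ ^ m)⁻¹ = v ^ m * g := by
          intro m
          induction m with
          | zero => simp
          | succ m ih =>
            have e1 : w₀ ^ (m + 1) * g * (w₀ ^ (m + 1))⁻¹ = w₀ * (w₀ ^ m * g * (w₀ ^ m)⁻¹) * w₀⁻¹ := by
              rw [pow_succ']; group
            have e2 : w₀ * v ^ m = v ^ m * w₀ := ((show Commute w₀ v from hc).pow_right m).eq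
            have e3 : w₀ * g * w₀⁻¹ = v * g := by rw [hv]; group
            rw [e1, ih]
            calc w₀ * (v ^ m * g) * w₀⁻¹ = (w₀ * v ^ m) * g * w₀⁻¹ := by group
              _ = v ^ m * (w₀ * g * w₀⁻¹) := by rw [e2]; group
              _ = v ^ (m + 1) * g := by rw [e3, pow_succ]; group
        obtain ⟨m, hm⟩ := C.two ⟨w₀, hw₀B⟩
        have hm' : w₀ ^ 2 ^ m = 1 := congrArg Subtype.val hm
        have h4 := h3 (2 ^ m)
        rw [hm'] at h4
        have h5 : v ^ 2 ^ m = 1 := by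
          have : v ^ 2 ^ m = (v ^ 2 ^ m * g) * g⁻¹ := by group
          rw [this, ← h4]; group
        obtain ⟨l, hl⟩ := hQq ⟨v, hu⟩
        have hl' : v ^ q ^ l = 1 := congrArg Subtype.val hl
        have h6 : orderOf v ∣ Nat.gcd (2 ^ m) (q ^ l) :=
          Nat.dvd_gcd (orderOf_dvd_of_pow_eq_one h5) (orderOf_dvd_of_pow_eq_one hl')
        have h7 : Nat.gcd (2 ^ m) (q ^ l) = 1 :=
          Nat.Coprime.pow _ _ ((Nat.coprime_primes Nat.prime_two hq.out).2 hq2.symm)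
        rw [h7] at h6
        exact orderOf_eq_one_iff.1 (Nat.dvd_one.1 h6)
      have h3 : w₀ ∈ B ⊓ centralizer (Q : Set H) := by
        refine ⟨hw₀B, mem_centralizer_iff.2 (fun g hg => ?_)⟩
        have h4 := h2 g hg
        have h5 : w₀ * g = (w₀ * g * w₀⁻¹ * g⁻¹) * (g * w₀) := by group
        rw [h5, h4, one_mul]
      rcases C.irr (B ⊓ centralizer (Q : Set H)) inf_le_left (by
        intro c hc
        have hcc : ∀ c ∈ A, ∀ g ∈ centralizer (Q : Set H), c * g * c⁻¹ ∈ centralizer (Q : Set H) := by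
          intro c hc g hg
          rw [mem_centralizer_iff] at hg ⊢
          intro k hk
          have h6 := hg _ ((mem_normalizer_iff''.1 (hAQ hc) k).1 hk)
          calc k * (c * g * c⁻¹) = c * ((c⁻¹ * k * c) * g) * c⁻¹ := by group
            _ = c * (g * (c⁻¹ * k * c)) * c⁻¹ := by rw [h6]
            _ = c * g * c⁻¹ * k := by group
        rw [mem_normalizer_iff]
        intro g
        constructor
        · rintro ⟨h4, h5⟩
          exact ⟨(mem_normalizer_iff.1 (C.AB hc) g).1 h4, hcc c hc g h5⟩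
        · rintro ⟨h4, h5⟩
          refine ⟨(mem_normalizer_iff.1 (C.AB hc) g).2 h4, ?_⟩
          have h6 := hcc c⁻¹ (A.inv_mem hc) _ h5
          have h7 : c⁻¹ * (c * g * c⁻¹) * c⁻¹⁻¹ = g := by group
          rwa [h7] at h6) with h4 | h4
      · apply hnt
        rw [commutator_eq_bot_iff_le_centralizer, le_centralizer_iff]
        exact inf_eq_left.1 h4
      · exact hw₀F (h4 h3)

end Cfsg.Agent.H49.Gr
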