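import Mathlib
import Cfsg.Agent.H49.Gr.QG
import Cfsg.Agent.Solv.MinNormal
import Cfsg.Agent.Solv.Core

set_option autoImplicit false
set_option linter.style.haveILetI false
set_option linter.unusedSectionVars false
set_option linter.unusedVariables false

/-!
Existence of a minimal odd section.
-/

namespace Cfsg.Agent.H49.Gr

open Module Subgroup
open scoped BigOperators commutatorElement

universe u

variable {H : Type u} [Group H] [Finite H]

theorem exists_pCore_nt (hsol : Group.IsSolvable H) (hO : pCore 2 H = ⊥) {B : Subgroup H} (hB : IsPGroup 2 B)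
    (hne : B ≠ ⊥) : ∃ (q : ℕ) (_ : Fact q.Prime), q ≠ 2 ∧ ⁅pCore q H, B⁆ ≠ ⊥ := by
  by_contra hcon
  push Not at hcon
  apply hne
  have h1 : (⨆ p : Nat.Primes, pCore (p : ℕ) H) ≤ centralizer (B : Set H) := by
    apply iSup_le
    intro p
    haveI : Fact (p : ℕ).Prime := ⟨p.2⟩
    by_cases hp : (p : ℕ) = 2
    · rw [hp, hO]; exact bot_le
    · rw [← commutator_eq_bot_iff_le_centralizer]
      exact hcon p this hp
  have h2 : B ≤ Cfsg.fittingSubgroup H := by
    refine le_trans ?_ (Solv.centralizer_fitting_le (G := H))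
    rw [le_centralizer_iff]
    exact Solv.fitting_le_iSup_pCore.trans h1
  have h3 : B ≤ ⨆ p : Nat.Primes, pCore (p : ℕ) H := h2.trans Solv.fitting_le_iSup_pCore
  have h4 := Solv.coprime_relIndex_pCore_iSup (G := H) 2
  rw [hO, relIndex_bot_left] at h4
  have h5 := (Nat.Coprime.coprime_dvd_left (Subgroup.card_dvd_of_le h3) h4)
  obtain ⟨k, hk⟩ := IsPGroup.iff_card.1 hB
  apply Subgroup.card_eq_one.1
  rw [hk] at h5 ⊢
  by_cases hk0 : k = 0
  · rw [hk0, pow_zero]
  · rw [Nat.coprime_pow_left_iff (by omega)] at h5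
    norm_num at h5

variable {K : Type*} [Field K] [IsAlgClosed K] [CharP K 2] {V : Type*} [AddCommGroup V] [Module K V]
  [FiniteDimensional K V] {ρ : Representation K H V}

theorem no_cfg (hsol : Group.IsSolvable H) (hO : pCore 2 H = ⊥) {x : H} {n : ℕ} {A B F : Subgroup H}
    (C : Cfg x n A B F) (hexp : ∀ g : H, (∃ k, g ^ 2 ^ k = 1) → g ^ 2 ^ n = 1)
    (hnil : (ρ x - 1) ^ (2 ^ n - 1) = 0) (hinj : Function.Injective ρ) : False := by
  have hne : B ≠ ⊥ := by
    rintro rfl
    obtain ⟨b, hb, hbF⟩ := C.mov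
    have hB : Nk x b (2 ^ (n - 2)) = 1 := by
      rw [mem_bot.1 hb, Nk_one_right]
    rw [hB] at hbF
    apply hbF
    have : (1 : H) * x ^ 2 ^ (n - 1) * 1⁻¹ * (x ^ 2 ^ (n - 1))⁻¹ = 1 := by group
    rw [this]; exact F.one_mem
  obtain ⟨q, hq, hq2, hnt⟩ := exists_pCore_nt hsol hO C.two hne
  obtain ⟨Q, hQ, hAQ, hQnt, hQmin⟩ := Cop.exists_min (A := B) (B := A) (P := pCore q H) (by
    haveI : (pCore q H).Normal := Solv.pCore_normal q
    rw [normalizer_eq_top]; exact le_top) hnt
  exact cfg_contra C hq2 ((Solv.pCore_isPGroup q).to_le hQ) hAQ hexp hnil hinj hQnt hQmin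

end Cfsg.Agent.H49.Gr
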