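import Mathlib
import Cfsg.Agent.H49.Gr.N
import Cfsg.Agent.H33.Frattini
import Cfsg.Agent.HH.PLenExp

set_option autoImplicit false
set_option linter.style.haveILetI false
set_option linter.unusedSectionVars false
set_option linter.unusedVariables false

/-!
Lifting the configuration.
-/

namespace Cfsg.Agent.H49.Gr

open Subgroup

universe u

variable {H H' : Type u} [Group H] [Finite H] [Group H']

theorem map_Nk (π : H →* H') (x b : H) (k : ℕ) : π (Nk x b k) = Nk (π x) (π b) k := by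
  simp [Nk]

theorem Cfg.lift (π : H →* H') (hπ : Function.Surjective π) (hker : (Nat.card π.ker).Coprime 2) {x' : H'} {n : ℕ}
    {A' B' F' : Subgroup H'} (C : Cfg x' n A' B' F') : ∃ (x : H) (A B F : Subgroup H), Cfg x n A B F := by
  classical
  haveI : Fact (Nat.Prime 2) := ⟨Nat.prime_two⟩
  haveI : Finite H' := Finite.of_surjective π hπ
  obtain ⟨T, hT⟩ := H33.IsSyl.exists (p := 2) (B'.comap π)
  have hTL := hT.1
  have hT2 := hT.2.1
  have hTB : ∀ t ∈ T, π t ∈ B' := fun t ht => hTL ht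
  -- injectivity on T
  have hinj1 : ∀ t ∈ T, π t = 1 → t = 1 := by
    intro t ht h1
    obtain ⟨k, hk⟩ := hT2 ⟨t, ht⟩
    have hk' : t ^ 2 ^ k = 1 := congrArg Subtype.val hk
    have h2 : orderOf t ∣ Nat.card π.ker := by
      rw [← Subgroup.orderOf_mk t (show t ∈ π.ker from h1)]
      exact orderOf_dvd_natCard _
    have h3 : orderOf t ∣ Nat.gcd (Nat.card π.ker) (2 ^ k) := Nat.dvd_gcd h2 (orderOf_dvd_of_pow_eq_one hk')
    rw [Nat.Coprime.pow_right k hker] at h3
    exact orderOf_eq_one_iff.1 (Nat.dvd_one.1 h3)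
  have hinj : ∀ s ∈ T, ∀ t ∈ T, π s = π t → s = t := by
    intro s hs t ht h1
    have h2 := hinj1 (s * t⁻¹) (T.mul_mem hs (T.inv_mem ht)) (by rw [map_mul, map_inv, h1, mul_inv_cancel])
    exact mul_inv_eq_one.1 h2
  -- surjectivity onto B'
  have hmap : T.map π = B' := by
    apply Subgroup.eq_of_le_of_card_ge
    · rintro _ ⟨t, ht, rfl⟩; exact hTB t ht
    · have h1 : Nat.card (T.map π) = Nat.card T := by
        have h2 : Function.Injective (π.comp T.subtype) := by
          intro s t hst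
          exact Subtype.ext (hinj s s.2 t t.2 hst)
        have h3 : (π.comp T.subtype).range = T.map π := by
          rw [MonoidHom.range_comp, Subgroup.range_subtype]
        rw [← h3]
        exact (Nat.card_congr (MonoidHom.ofInjective h2).toEquiv).symm
      rw [h1]
      obtain ⟨m, hm⟩ := IsPGroup.iff_card.1 C.two
      have h4 : Nat.card B' ∣ Nat.card (B'.comap π) := by
        have h5 : (B'.comap π).map π = B' := Subgroup.map_comap_eq_self_of_surjective hπ B'
        conv_lhs => rw [← h5]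
        exact Subgroup.card_map_dvd _ _
      have h7 : T.relIndex (B'.comap π) * Nat.card T = Nat.card (B'.comap π) := by
        rw [mul_comm]; exact H63.card_mul_relIndex hTL
      rw [← h7, hm] at h4
      have h8 : Nat.Coprime (2 ^ m) (T.relIndex (B'.comap π)) :=
        Nat.Coprime.pow_left _ ((Nat.Prime.coprime_iff_not_dvd Nat.prime_two).2 hT.2.2)
      rw [hm]
      exact Nat.le_of_dvd Nat.card_pos (h8.dvd_of_dvd_mul_left h4)
  have hsurjB : ∀ b ∈ B', ∃ t ∈ T, π t = b := by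
    intro b hb
    rw [← hmap] at hb
    exact hb
  set A := normalizer (T : Set H) ⊓ A'.comap π with hA
  have hsurjA : ∀ a ∈ A', ∃ g ∈ A, π g = a := by
    intro a ha
    obtain ⟨g, rfl⟩ := hπ a
    have h1 : g ∈ normalizer ((B'.comap π : Subgroup H) : Set H) := by
      rw [mem_normalizer_iff]
      intro h
      rw [mem_comap, mem_comap, map_mul, map_mul, map_inv]
      exact mem_normalizer_iff.1 (C.AB ha) _
    obtain ⟨l, hl, hlg⟩ := hT.frattini h1
    obtain ⟨t, ht, htl⟩ := hsurjB _ hl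
    refine ⟨t⁻¹ * (l * g), ⟨mul_mem (le_normalizer (T.inv_mem ht)) hlg, ?_⟩, ?_⟩
    · change π (t⁻¹ * (l * g)) ∈ A'
      rw [map_mul, map_mul, map_inv, htl, inv_mul_cancel_left]; exact ha
    · rw [map_mul, map_mul, map_inv, htl, inv_mul_cancel_left]
  let f : A →* A' := (π.comp A.subtype).codRestrict A' (fun a => a.2.2)
  have hf : Function.Surjective f := by
    intro a
    obtain ⟨g, hg, hga⟩ := hsurjA a a.2
    exact ⟨⟨g, hg⟩, Subtype.ext hga⟩
  obtain ⟨k, hk⟩ := C.x2
  obtain ⟨x, hx, l, hl⟩ := HH.exists_lift_pelt f hf (p := 2) ⟨x', C.xA⟩ (k := k) (Subtype.ext hk)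
  have hxx : π x = x' := congrArg Subtype.val hx
  have hTA : T ≤ A := le_inf le_normalizer (fun t ht => C.BA (hTB t ht))
  set F := T ⊓ F'.comap π with hF
  refine ⟨x, A, T, F, ⟨l, congrArg Subtype.val hl⟩, x.2, hTA, inf_le_left, inf_le_left, ?_, hT2, ?_, ?_, ?_, ?_, ?_, ?_⟩
  · intro a ha
    rw [mem_normalizer_iff]
    intro h
    rw [hF, mem_inf, mem_inf, mem_comap, mem_comap, map_mul, map_mul, map_inv,
      ← mem_normalizer_iff.1 (C.AF ha.2), ← mem_normalizer_iff.1 ha.1]
  · intro z hz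
    apply hinj1 _ (T.mul_mem hz.1 hz.1)
    rw [map_mul]; exact C.sq1 _ hz.2
  · intro z hz b hb
    apply hinj _ (T.mul_mem hz.1 hb) _ (T.mul_mem hb hz.1)
    rw [map_mul, map_mul]; exact C.cen _ hz.2 _ (hTB b hb)
  · intro b hb
    refine ⟨T.mul_mem hb hb, ?_⟩
    change π (b * b) ∈ F'
    rw [map_mul]; exact C.sq _ (hTB b hb)
  · intro b hb c hc
    refine ⟨T.mul_mem (T.mul_mem (T.mul_mem hb hc) (T.inv_mem hb)) (T.inv_mem hc), ?_⟩
    change π (b * c * b⁻¹ * c⁻¹) ∈ F'
    rw [map_mul, map_mul, map_mul, map_inv, map_inv]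
    exact C.com _ (hTB b hb) _ (hTB c hc)
  · intro U hU hAU
    rcases C.irr (U.map π) (by rw [← hmap]; exact Subgroup.map_mono hU) (by
      intro a ha
      obtain ⟨g, hg, rfl⟩ := hsurjA a ha
      rw [mem_normalizer_iff]
      intro h
      constructor
      · rintro ⟨u, hu, rfl⟩
        exact ⟨g * u * g⁻¹, (mem_normalizer_iff.1 (hAU hg) u).1 hu, by rw [map_mul, map_mul, map_inv]⟩
      · rintro ⟨u, hu, hue⟩
        refine ⟨g⁻¹ * u * g, (mem_normalizer_iff''.1 (hAU hg) u).1 hu, ?_⟩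
        rw [map_mul, map_mul, map_inv, hue]; group) with h1 | h1
    · left
      apply le_antisymm hU
      intro t ht
      have h2 : π t ∈ U.map π := by rw [h1]; exact hTB t ht
      obtain ⟨u, hu, hut⟩ := h2
      rw [← hinj u (hU hu) t ht hut]; exact hu
    · right
      intro u hu
      exact ⟨hU hu, h1 ⟨u, hu, rfl⟩⟩
  · obtain ⟨b', hb', hbF⟩ := C.mov
    obtain ⟨b, hb, rfl⟩ := hsurjB b' hb'
    refine ⟨b, hb, ?_⟩
    intro hcon
    apply hbF
    have h1 : π (Nk (x : H) b (2 ^ (n - 2)) * (x : H) ^ 2 ^ (n - 1) * (Nk (x : H) b (2 ^ (n - 2)))⁻¹ *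
      ((x : H) ^ 2 ^ (n - 1))⁻¹) ∈ F' := hcon.2
    rw [map_mul, map_mul, map_mul, map_inv, map_inv, map_pow, map_Nk, hxx] at h1
    exact h1

end Cfsg.Agent.H49.Gr
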