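import Mathlib
import Cfsg.Agent.H49.Gr.Lift
import Cfsg.Agent.H49.Gr.Fit
import Cfsg.Agent.H49.Gr.D
import Cfsg.Agent.HH.Frat
import Cfsg.Agent.ZJ.SolvFact

set_option autoImplicit false
set_option linter.style.haveILetI false
set_option linter.unusedSectionVars false
set_option linter.unusedVariables false

/-!
Existence of the configuration.
-/

namespace Cfsg.Agent.H49.Gr

open Module Subgroup
open scoped BigOperators commutatorElement

universe u

section cover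

variable {H H' : Type u} [Group H] [Finite H] [Group H']

theorem syl_cover {p : ℕ} [hp : Fact p.Prime] (π : H →* H') (hπ : Function.Surjective π) (hker : (Nat.card π.ker).Coprime p)
    {B' : Subgroup H'} (hB' : IsPGroup p B') {T : Subgroup H} (hT : H33.IsSyl p T (B'.comap π)) :
    T.map π = B' := by
  classical
  haveI : Finite H' := Finite.of_surjective π hπ
  have hTL := hT.1
  have hT2 := hT.2.1
  have hTB : ∀ t ∈ T, π t ∈ B' := fun t ht => hTL ht
  have hinj1 : ∀ t ∈ T, π t = 1 → t = 1 := by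
    intro t ht h1
    obtain ⟨k, hk⟩ := hT2 ⟨t, ht⟩
    have hk' : t ^ p ^ k = 1 := congrArg Subtype.val hk
    have h2 : orderOf t ∣ Nat.card π.ker := by
      rw [← Subgroup.orderOf_mk t (show t ∈ π.ker from h1)]
      exact orderOf_dvd_natCard _
    have h3 : orderOf t ∣ Nat.gcd (Nat.card π.ker) (p ^ k) := Nat.dvd_gcd h2 (orderOf_dvd_of_pow_eq_one hk')
    rw [Nat.Coprime.pow_right k hker] at h3
    exact orderOf_eq_one_iff.1 (Nat.dvd_one.1 h3)
  have hinj : ∀ s ∈ T, ∀ t ∈ T, π s = π t → s = t := by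
    intro s hs t ht h1
    have h2 := hinj1 (s * t⁻¹) (T.mul_mem hs (T.inv_mem ht)) (by rw [map_mul, map_inv, h1, mul_inv_cancel])
    exact mul_inv_eq_one.1 h2
  apply Subgroup.eq_of_le_of_card_ge
  · rintro _ ⟨t, ht, rfl⟩; exact hTB t ht
  · have h1 : Nat.card (T.map π) = Nat.card T := by
      have h2 : Function.Injective (π.comp T.subtype) := by
        intro s t hst
        exact Subtype.ext (hinj s s.2 t t.2 hst)
      have h3 : (π.comp T.subtype).range = T.map π := by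
        rw [MonoidHom.range_comp, Subgroup.range_subtype]
      rw [← h3]
      exact (Nat.card_congr (MonoidHom.ofInjective h2).toEquiv).symm
    rw [h1]
    obtain ⟨m, hm⟩ := IsPGroup.iff_card.1 hB'
    have h4 : Nat.card B' ∣ Nat.card (B'.comap π) := by
      have h5 : (B'.comap π).map π = B' := Subgroup.map_comap_eq_self_of_surjective hπ B'
      conv_lhs => rw [← h5]
      exact Subgroup.card_map_dvd _ _
    have h7 : T.relIndex (B'.comap π) * Nat.card T = Nat.card (B'.comap π) := by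
      rw [mul_comm]; exact H63.card_mul_relIndex hTL
    rw [← h7, hm] at h4
    have h8 : Nat.Coprime (p ^ m) (T.relIndex (B'.comap π)) :=
      Nat.Coprime.pow_left _ ((Nat.Prime.coprime_iff_not_dvd hp.out).2 hT.2.2)
    rw [hm]
    exact Nat.le_of_dvd Nat.card_pos (h8.dvd_of_dvd_mul_left h4)

end cover

variable {G : Type u} [Group G] [Finite G]

/-- a 2-group acting on an `F_2`-space has nonzero fixed vectors -/
theorem exists_fixed_vec {𝒢 : Type*} [Group 𝒢] {E : Type*} [AddCommGroup E] [Module (ZMod 2) E] [Finite E] [Nontrivial E]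
    (ρ : 𝒢 →* Module.End (ZMod 2) E) (N : Subgroup 𝒢) (hN : IsPGroup 2 (N.map (QuotientGroup.mk' ρ.ker))) :
    ∃ e : E, e ≠ 0 ∧ ∀ g ∈ N, ρ g e = e := by
  let ψ : 𝒢 ⧸ ρ.ker →* Module.End (ZMod 2) E := QuotientGroup.lift ρ.ker ρ (fun g hg => hg)
  have hψ : ∀ g, ψ (QuotientGroup.mk' ρ.ker g) = ρ g := fun g => rfl
  letI : MulAction (N.map (QuotientGroup.mk' ρ.ker)) E :=
    MulAction.compHom E (ψ.comp (N.map (QuotientGroup.mk' ρ.ker)).subtype)
  have hsm : ∀ (g : N.map (QuotientGroup.mk' ρ.ker)) (e : E), g • e = ψ g e := fun _ _ => rfl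
  obtain ⟨e, he, he0⟩ := hN.exists_fixed_point_of_prime_dvd_card_of_fixed_point E (by
    have h1 := Module.natCard_eq_pow_finrank (K := ZMod 2) (V := E)
    rw [Nat.card_zmod] at h1
    rw [h1]
    apply dvd_pow_self
    intro h0
    rw [h0, pow_zero] at h1
    have : 1 < Nat.card E := Finite.one_lt_card
    omega) (a := (0 : E)) (by
    intro g
    rw [hsm, map_zero])
  refine ⟨e, fun h => he0 h.symm, fun g hg => ?_⟩
  have := he ⟨_, ⟨g, hg, rfl⟩⟩
  rw [hsm] at this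
  exact this

/-- **A5** -/
theorem exists_mov {P F₁ G₁ : Subgroup G} {n : ℕ} (hn : 1 ≤ n) (hsol : Group.IsSolvable G)
    (hG₁P : G₁ ≤ normalizer (P : Set G)) {E : Type u} [AddCommGroup E] [Module (ZMod 2) E] [Finite E]
    (S : BG3.SecMod 2 P F₁ G₁ hG₁P E) (hFP : F₁ ≤ P) (hPne : ¬ P ≤ F₁)
    (hirr : ∀ U ≤ P, G₁ ≤ normalizer (U : Set G) → U = P ∨ U ≤ F₁)
    {x : G} (hx : x ∈ G₁) (hxn : x ^ 2 ^ n = 1)
    (hy : S.ρ ⟨x ^ 2 ^ (n - 1), pow_mem hx _⟩ ≠ 1) :
    ∃ b ∈ P, Nk x b (2 ^ (n - 2)) * x ^ 2 ^ (n - 1) * (Nk x b (2 ^ (n - 2)))⁻¹ * (x ^ 2 ^ (n - 1))⁻¹ ∉ F₁ := by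
  classical
  by_contra hcon
  push Not at hcon
  haveI hEnt : Nontrivial E := by
    by_contra h0
    rw [not_nontrivial_iff_subsingleton] at h0
    exact hy (LinearMap.ext (fun v => Subsingleton.elim _ _))
  haveI : CharP (Module.End (ZMod 2) E) 2 :=
    charP_of_injective_algebraMap (FaithfulSMul.algebraMap_injective (ZMod 2) (Module.End (ZMod 2) E)) 2
  haveI : FiniteDimensional (ZMod 2) E := Module.Finite.of_finite
  let x' : G₁ := ⟨x, hx⟩
  set T : Module.End (ZMod 2) E := S.ρ x'⁻¹ with hT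
  have hx'n : x' ^ 2 ^ n = 1 := Subtype.ext hxn
  have hTn : T ^ 2 ^ n = 1 := by rw [hT, ← map_pow, inv_pow, hx'n, inv_one, map_one]
  set y' : G₁ := ⟨x ^ 2 ^ (n - 1), pow_mem hx _⟩ with hy'
  have hyx : y' = x' ^ 2 ^ (n - 1) := rfl
  have hyy : y' * y' = 1 := by
    rw [hyx, ← pow_add, ← two_mul, ← pow_succ', show n - 1 + 1 = n by omega, hx'n]
  have hyi : y'⁻¹ = y' := inv_eq_of_mul_eq_one_right hyy
  have hTy : T ^ 2 ^ (n - 1) = S.ρ y' := by
    rw [hT, ← map_pow, inv_pow, ← hyx, hyi]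
  have hx'P : ∀ b ∈ P, x⁻¹ * b * x ∈ P := fun b hb => (mem_normalizer_iff''.1 (hG₁P hx) b).1 hb
  -- the image of Nk
  have hNk : ∀ b (hb : b ∈ P) (k : ℕ), (S.π ⟨Nk x b k, Nk_mem hx'P hb k⟩).toAdd =
      (∑ i ∈ Finset.range k, T ^ i) (S.π ⟨b, hb⟩).toAdd := by
    intro b hb k
    induction k with
    | zero =>
      rw [Finset.range_zero, Finset.sum_empty, LinearMap.zero_apply, pi_eq_zero S, Nk_zero]
      exact F₁.one_mem
    | succ k ih =>
      have h1 : (x'⁻¹ : G₁) * Nk x b k * ((x'⁻¹ : G₁) : G)⁻¹ ∈ P := conj_mem (hYQ := hG₁P) x'⁻¹ (Nk_mem hx'P hb k)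
      have h2 : Nk x b (k + 1) = ((x'⁻¹ : G₁) * Nk x b k * ((x'⁻¹ : G₁) : G)⁻¹) * b := by
        rw [Nk_succ]
        change x⁻¹ * Nk x b k * x * b = (x⁻¹ * Nk x b k * (x⁻¹)⁻¹) * b
        group
      have h3 : (S.π ⟨Nk x b (k + 1), Nk_mem hx'P hb (k + 1)⟩).toAdd =
          (S.π ⟨((x'⁻¹ : G₁) * Nk x b k * ((x'⁻¹ : G₁) : G)⁻¹) * b, P.mul_mem h1 hb⟩).toAdd := by
        congr 2
        exact Subtype.ext h2
      rw [h3, pi_mul S h1 hb, pi_conj S x'⁻¹ (Nk_mem hx'P hb k), ih, Finset.sum_range_succ', LinearMap.add_apply,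
        pow_zero, Module.End.one_apply]
      congr 1
      rw [← hT, ← Module.End.mul_apply, Finset.mul_sum]
      congr 1
      apply Finset.sum_congr rfl
      intro i _
      rw [pow_succ']
  have hzero : (T - 1) ^ (2 ^ (n - 1) + 2 ^ (n - 2) - 1) = 0 := by
    apply LinearMap.ext
    intro e
    obtain ⟨b, hb, rfl⟩ := exists_lift S e
    have h1 := hcon b hb
    have hN : Nk x b (2 ^ (n - 2)) ∈ P := Nk_mem hx'P hb _
    set N := Nk x b (2 ^ (n - 2)) with hNdef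
    have hyN : (y' : G) * N⁻¹ * (y' : G)⁻¹ ∈ P := conj_mem (hYQ := hG₁P) y' (P.inv_mem hN)
    have h2 : N * x ^ 2 ^ (n - 1) * N⁻¹ * (x ^ 2 ^ (n - 1))⁻¹ = N * ((y' : G) * N⁻¹ * (y' : G)⁻¹) := by
      change _ = N * (x ^ 2 ^ (n - 1) * N⁻¹ * (x ^ 2 ^ (n - 1))⁻¹)
      group
    rw [h2, ← pi_eq_zero S (P.mul_mem hN hyN), pi_mul S hN hyN, pi_conj S y' (P.inv_mem hN), pi_inv S hN, map_neg,
      hNk b hb, HH.geom_eq_pow, ← sub_eq_add_neg] at h1
    have h3 : S.ρ y' - 1 = (T - 1) ^ 2 ^ (n - 1) := by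
      rw [sub_pow_char_pow_of_commute _ _ (Commute.one_right _), one_pow, hTy]
    have h4 : (S.ρ y' - 1) (((T - 1 : Module.End (ZMod 2) E) ^ (2 ^ (n - 2) - 1)) (S.π ⟨b, hb⟩).toAdd) = 0 := by
      rw [LinearMap.sub_apply, Module.End.one_apply]
      rw [sub_eq_zero] at h1 ⊢
      exact h1.symm
    rw [h3, ← Module.End.mul_apply, ← pow_add] at h4
    have h5 : 2 ^ (n - 1) + (2 ^ (n - 2) - 1) = 2 ^ (n - 1) + 2 ^ (n - 2) - 1 :=
      (Nat.add_sub_assoc Nat.one_le_two_pow _).symm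
    rw [h5] at h4
    rw [h4]; rfl
  have hTy1 : T ^ 2 ^ (n - 1) ≠ 1 := by rw [hTy]; exact hy
  have hpz : ∀ m, 2 ^ (n - 1) + 2 ^ (n - 2) - 1 ≤ m → (T - 1) ^ m = 0 := fun m hm => pow_eq_zero_of_le hm hzero
  have hn2 : 2 ≤ n := by
    by_contra hc
    have h1 : n = 1 := by omega
    subst h1
    have h2 := hpz 1 (by norm_num)
    rw [pow_one, sub_eq_zero] at h2
    apply hTy1
    rw [h2, one_pow]
  have hG₁sol : Group.IsSolvable G₁ := by
    haveI := hsol
    infer_instance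
  have hkk : ∀ N : Subgroup G₁, N.Normal → S.ρ.ker ≤ N → IsPGroup 2 (N.map (QuotientGroup.mk' S.ρ.ker)) → N ≤ S.ρ.ker := by
    intro N hNn hkN hN2
    obtain ⟨e, he0, he⟩ := exists_fixed_vec S.ρ N hN2
    let EN : Submodule (ZMod 2) E :=
      { carrier := {v | ∀ g ∈ N, S.ρ g v = v}
        add_mem' := fun ha hb g hg => by rw [map_add, ha g hg, hb g hg]
        zero_mem' := fun g _ => by rw [map_zero]
        smul_mem' := fun c a ha g hg => by rw [map_smul, ha g hg] }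
    have hEN : ∀ v, v ∈ EN ↔ ∀ g ∈ N, S.ρ g v = v := fun _ => Iff.rfl
    have hENinv : ∀ a : G₁, ∀ v ∈ EN, S.ρ a v ∈ EN := by
      intro a v hv g hg
      have h1 : S.ρ (a⁻¹ * g * a) v = v := hv _ (by
        have := hNn.conj_mem g hg a⁻¹
        rwa [inv_inv] at this)
      conv_rhs => rw [← h1]
      rw [← rmul, ← rmul]
      congr 2; group
    rcases hirr (pre S EN) (pre_le S EN) (by
      intro a ha
      rw [mem_normalizer_iff]
      intro g
      refine ⟨fun hg => conj_mem_pre S ⟨a, ha⟩ (hENinv ⟨a, ha⟩) hg, fun hg => ?_⟩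
      have h1 := conj_mem_pre S ⟨a⁻¹, G₁.inv_mem ha⟩ (hENinv ⟨a⁻¹, G₁.inv_mem ha⟩) hg
      have h2 : a⁻¹ * (a * g * a⁻¹) * a⁻¹⁻¹ = g := by group
      change a⁻¹ * (a * g * a⁻¹) * a⁻¹⁻¹ ∈ pre S EN at h1
      rwa [h2] at h1) with h1 | h1
    · intro g hg
      rw [MonoidHom.mem_ker]
      apply LinearMap.ext
      intro v
      obtain ⟨b, hb, rfl⟩ := exists_lift S v
      have h2 : b ∈ pre S EN := by rw [h1]; exact hb
      obtain ⟨_, h3⟩ := (mem_pre S).1 h2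
      exact h3 g hg
    · exfalso
      apply he0
      obtain ⟨b, hb, rfl⟩ := exists_lift S e
      exact (pi_eq_zero S hb).2 (h1 ((mem_pre S).2 ⟨hb, he⟩))
  rcases HH.thmB_rep S.ρ (ZJ.isPSolvable_of_isSolvable 2 hG₁sol) hkk (x := x'⁻¹) (n := n) hn hTn hTy1 with h1 | h1
  · apply h1
    apply hpz
    have h2 : 2 ^ n = 2 ^ (n - 1) + 2 ^ (n - 1) := by
      rw [← two_mul, ← pow_succ']; congr 1; omega
    have h3 : 2 ^ (n - 2) ≤ 2 ^ (n - 1) := Nat.pow_le_pow_right (by norm_num) (by omega)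
    omega
  · obtain ⟨n₀, q, m, hn₀, hn₀n, hq, hm, hqm, -, hne⟩ := h1
    apply hne
    apply hpz
    have hn₀2 : 2 ≤ n₀ := by
      by_contra hc
      have h1 : n₀ = 1 := by omega
      rw [h1] at hqm
      have h2 : q ^ 1 ≤ q ^ m := Nat.pow_le_pow_right hq.pos hm
      have h3 := hq.two_le
      rw [← hqm, pow_one] at h2
      omega
    have h2 : 2 ^ (n - n₀) * (2 ^ n₀ - 1) = 2 ^ n - 2 ^ (n - n₀) := by
      rw [Nat.mul_sub, mul_one, ← pow_add]
      congr 2; omega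
    rw [h2]
    have h3 : 2 ^ n = 2 ^ (n - 1) + (2 ^ (n - 2) + 2 ^ (n - 2)) := by
      have e1 : 2 ^ n = 2 ^ (n - 1) + 2 ^ (n - 1) := by
        rw [← two_mul, ← pow_succ']; congr 1; omega
      have e2 : 2 ^ (n - 1) = 2 ^ (n - 2) + 2 ^ (n - 2) := by
        rw [← two_mul, ← pow_succ']; congr 1; omega
      omega
    have h4 : 2 ^ (n - n₀) ≤ 2 ^ (n - 2) := Nat.pow_le_pow_right (by norm_num) (by omega)
    omega

end Cfsg.Agent.H49.Gr
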