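import Mathlib
import Cfsg.Agent.H49.Gr.Conf

set_option autoImplicit false
set_option linter.style.haveILetI false
set_option linter.unusedSectionVars false
set_option linter.unusedVariables false

/-!
Existence of the configuration.
-/

namespace Cfsg.Agent.H49.Gr

open Module Subgroup
open scoped BigOperators commutatorElement

universe u

variable {G : Type u} [Group G] [Finite G]

/-- the configuration from a group acting on the 2-core -/
theorem exists_cfg_of {P₀ L : Subgroup G} {n : ℕ} (hn : 1 ≤ n) (hsol : Group.IsSolvable G) (hP₀ : IsPGroup 2 P₀)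
    {x : G} (hLP₀ : L ≤ normalizer (P₀ : Set G)) (hxP₀ : x ∈ normalizer (P₀ : Set G)) (hL : (Nat.card L).Coprime 2)
    (hxL : x ∈ normalizer (L : Set G)) (hxn : x ^ 2 ^ n = 1)
    (hnt : ⁅P₀, ⁅L, zpowers (x ^ 2 ^ (n - 1))⁆⁆ ≠ ⊥) :
    ∃ (A B F : Subgroup G), Cfg x n A B F := by
  classical
  set y := x ^ 2 ^ (n - 1) with hy
  set S₁ := ⁅L, zpowers y⁆ with hS₁
  set G₁ := L ⊔ zpowers x with hG₁
  have hxz := mem_zpowers x
  have hzyx : zpowers y ≤ zpowers x := by rw [zpowers_le]; exact pow_mem hxz _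
  have hzxL : zpowers x ≤ normalizer (L : Set G) := by rw [zpowers_le]; exact hxL
  have hS₁L : S₁ ≤ L := le_normalizer_iff_commutator_le_left.1 (hzyx.trans hzxL)
  have hS₁G : S₁ ≤ G₁ := hS₁L.trans le_sup_left
  have hG₁P₀ : G₁ ≤ normalizer (P₀ : Set G) := sup_le hLP₀ (by rw [zpowers_le]; exact hxP₀)
  have hLS₁ : L ≤ normalizer (S₁ : Set G) := normalizer_commutator_ge_left _ _
  have hG₁S₁ : G₁ ≤ normalizer (S₁ : Set G) := by
    apply sup_le hLS₁
    rw [zpowers_le]
    apply H49.mem_normalizer_commutator hxL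
    apply centralizer_le_normalizer
    rw [mem_centralizer_iff]
    intro h hh
    obtain ⟨k, rfl⟩ := mem_zpowers_iff.1 hh
    rw [hy]
    exact ((Commute.refl x).pow_left _).zpow_left k
  have hS₁c : (Nat.card S₁).Coprime 2 := Nat.Coprime.coprime_dvd_left (Subgroup.card_dvd_of_le hS₁L) hL
  obtain ⟨P, hPP₀, hG₁P, hPnt, hPmin⟩ := Cop.exists_min hG₁P₀ hnt
  have hP2 : IsPGroup 2 P := hP₀.to_le hPP₀
  haveI : Fact (Nat.Prime 2) := ⟨Nat.prime_two⟩
  have hcomm := Cop.min_commutator_eq hP2 hG₁P hS₁G hG₁S₁ hS₁c hPnt hPmin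
  have hstr := Cop.min_structure hP2 hG₁P hS₁G hG₁S₁ hS₁c hPnt hPmin
  set F := P ⊓ centralizer (S₁ : Set G) with hF
  have hFP : F ≤ P := inf_le_left
  -- structure facts
  have hfacts : (∀ z ∈ F, z * z = 1) ∧ (∀ z ∈ F, ∀ b ∈ P, z * b = b * z) ∧ (∀ b ∈ P, b * b ∈ F) ∧
      (∀ b ∈ P, ∀ c ∈ P, b * c * b⁻¹ * c⁻¹ ∈ F) := by
    rcases hstr with ⟨hel, hC⟩ | ⟨hsp, hnc, hZ⟩
    · have hab : ∀ g ∈ P, ∀ h ∈ P, g * h = h * g := fun g hg h hh =>
        congrArg Subtype.val (hel.1.1.1 ⟨g, hg⟩ ⟨h, hh⟩)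
      rw [hC]
      refine ⟨?_, ?_, ?_, ?_⟩
      · intro z hz; rw [mem_bot.1 hz, one_mul]
      · intro z hz b _; rw [mem_bot.1 hz, one_mul, mul_one]
      · intro b hb; rw [mem_bot, ← pow_two]; exact hel.2 b hb
      · intro b hb c hc; rw [mem_bot, hab b hb c hc]; group
    · have hZc : ∀ g : P, g ∈ center P → ∀ k ∈ P, (g : G) * k = k * g := fun g hg k hk =>
        (congrArg Subtype.val (mem_center_iff.1 hg ⟨k, hk⟩)).symm
      have hsqZ : ∀ g : P, g ^ 2 ∈ center P := by
        intro g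
        rw [← hsp.2.1]
        exact Solv.pow_mem_frattini_of_pGroup hP2 g
      have hcZ : ∀ g h : P, ⁅g, h⁆ ∈ center P := by
        intro g h
        rw [← hsp.2.2, _root_.commutator_def]
        exact commutator_mem_commutator (mem_top _) (mem_top _)
      have hmem : ∀ g : P, g ∈ center P → (g : G) ∈ F := by
        intro g hg
        rw [← hZ]
        exact ⟨g, hg, rfl⟩
      refine ⟨?_, ?_, ?_, ?_⟩
      · -- exponent of the centre
        let E2 : Subgroup P :=
          { carrier := {z | z ∈ center P ∧ z * z = 1}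
            one_mem' := ⟨one_mem _, one_mul 1⟩
            mul_mem' := by
              rintro a b ⟨ha, ha'⟩ ⟨hb, hb'⟩
              refine ⟨mul_mem ha hb, ?_⟩
              have h1 : b * a = a * b := mem_center_iff.1 ha b
              calc a * b * (a * b) = a * (b * a) * b := by group
                _ = (a * a) * (b * b) := by rw [h1]; group
                _ = 1 := by rw [ha', hb', one_mul]
            inv_mem' := by
              rintro a ⟨ha, ha'⟩
              refine ⟨inv_mem ha, ?_⟩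
              rw [← mul_inv_rev, ha', inv_one] }
        have hE2 : commutator P ≤ E2 := by
          rw [_root_.commutator_def, commutator_le]
          intro b _ c _
          refine ⟨hcZ b c, ?_⟩
          have h1 := hcZ b c
          have h2 := hsqZ b
          have h3 : ∀ k, ⁅b, c⁆ * k = k * ⁅b, c⁆ := fun k => (mem_center_iff.1 h1 k).symm
          have h4 : b * c = ⁅b, c⁆ * (c * b) := by rw [commutatorElement_def]; group
          have h5 : b * b * c = ⁅b, c⁆ * ⁅b, c⁆ * (c * (b * b)) := by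
            calc b * b * c = b * (b * c) := by group
              _ = b * (⁅b, c⁆ * (c * b)) := by rw [← h4]
              _ = (b * ⁅b, c⁆) * c * b := by group
              _ = ⁅b, c⁆ * (b * c) * b := by rw [← h3]; group
              _ = ⁅b, c⁆ * (⁅b, c⁆ * (c * b)) * b := by rw [← h4]
              _ = _ := by group
          have h6 : b * b * c = c * (b * b) := by
            rw [← pow_two]; exact (mem_center_iff.1 h2 c).symm
          rw [h6] at h5
          have h7 : (1 : P) * (c * (b * b)) = ⁅b, c⁆ * ⁅b, c⁆ * (c * (b * b)) := by rw [one_mul]; exact h5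
          exact (mul_right_cancel h7).symm
        intro z hz
        rw [← hZ] at hz
        obtain ⟨z', hz', rfl⟩ := hz
        have h1 : z' ∈ E2 := hE2 (by rw [hsp.2.2]; exact hz')
        exact congrArg Subtype.val h1.2
      · intro z hz b hb
        rw [← hZ] at hz
        obtain ⟨z', hz', rfl⟩ := hz
        exact hZc z' hz' b hb
      · intro b hb
        have h1 := hmem _ (hsqZ ⟨b, hb⟩)
        rw [pow_two] at h1
        exact h1
      · intro b hb c hc
        exact hmem _ (hcZ ⟨b, hb⟩ ⟨c, hc⟩)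
  obtain ⟨hsq1, hcen, hsq, hcom⟩ := hfacts
  have hirr : ∀ U ≤ P, G₁ ≤ normalizer (U : Set G) → U = P ∨ U ≤ F := by
    intro U hU hGU
    by_cases h1 : U = P
    · exact Or.inl h1
    · right
      have h2 := hPmin U (lt_of_le_of_ne hU h1) hGU
      rw [commutator_eq_bot_iff_le_centralizer] at h2
      exact le_inf hU h2
  have hPF : ¬ P ≤ F := by
    intro h1
    apply hPnt
    rw [commutator_eq_bot_iff_le_centralizer]
    exact h1.trans inf_le_right
  have hG₁F : G₁ ≤ normalizer (F : Set G) := by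
    intro a ha
    have h1 := hG₁P ha
    have h2 := H33.norm_le_norm_cent S₁ (hG₁S₁ ha)
    rw [mem_normalizer_iff] at h1 h2 ⊢
    intro z
    rw [hF, mem_inf, mem_inf, ← h1 z, ← h2 z]
  have hPF' : P ≤ normalizer (F : Set G) := by
    intro b hb
    rw [mem_normalizer_iff]
    intro z
    constructor
    · intro hz
      rw [← hcen z hz b hb, mul_inv_cancel_right]; exact hz
    · intro hz
      have h1 := hcen _ hz b hb
      have h2 : z = b⁻¹ * (b * z * b⁻¹) * b := by group
      rw [h2, mul_assoc, h1, inv_mul_cancel_left]; exact hz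
  obtain ⟨E, _, _, ⟨S⟩⟩ := BG3.exists_secMod (ℓ := 2) (M := P) (M1 := F) (Y := G₁) hPF' hG₁P hG₁F
    (fun b hb => by rw [pow_two]; exact hsq b hb) hcom
  haveI : Finite E := S.finite
  have hxG₁ : x ∈ G₁ := (le_sup_right : zpowers x ≤ G₁) hxz
  have hyG₁ : y ∈ G₁ := pow_mem hxG₁ _
  have hy1 : S.ρ ⟨y, hyG₁⟩ ≠ 1 := by
    intro h0
    apply hPF
    have h1 : ∀ s ∈ S₁, ∀ b ∈ P, s * b * s⁻¹ * b⁻¹ ∈ F := by
      have h2 : S₁ ≤ (S.ρ.ker).map G₁.subtype := by
        rw [hS₁, commutator_le]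
        intro l hl c hc
        have hlG : l ∈ G₁ := (le_sup_left : L ≤ G₁) hl
        have hcG : c ∈ G₁ := (hzyx.trans le_sup_right) hc
        have hcker : (⟨c, hcG⟩ : G₁) ∈ S.ρ.ker := by
          obtain ⟨i, rfl⟩ := mem_zpowers_iff.1 hc
          exact zpow_mem (show (⟨y, hyG₁⟩ : G₁) ∈ S.ρ.ker from h0) i
        refine ⟨⁅(⟨l, hlG⟩ : G₁), ⟨c, hcG⟩⁆, ?_, rfl⟩
        rw [commutatorElement_def]
        have h3 := (MonoidHom.normal_ker S.ρ).conj_mem _ hcker ⟨l, hlG⟩
        exact mul_mem h3 (inv_mem hcker)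
      intro s hs b hb
      obtain ⟨s', hs', rfl⟩ := h2 hs
      exact (S.rho_eq_iff s').1 (fun v => by rw [MonoidHom.mem_ker.1 hs']; rfl) b hb
    rw [← hcomm, commutator_le]
    intro b hb s hs
    have h3 := h1 s hs b hb
    have h4 := inv_mem h3
    have h5 : ⁅b, s⁆ = (s * b * s⁻¹ * b⁻¹)⁻¹ := by rw [commutatorElement_def]; group
    rw [h5]; exact h4
  obtain ⟨b, hb, hbF⟩ := exists_mov hn hsol hG₁P S hFP hPF hirr hxG₁ hxn hy1
  have hPG₁ : P ⊔ G₁ ≤ normalizer (P : Set G) := sup_le le_normalizer hG₁P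
  exact ⟨P ⊔ G₁, P, F, ⟨n, hxn⟩, (le_sup_right : G₁ ≤ P ⊔ G₁) hxG₁, le_sup_left, hPG₁, hFP,
    sup_le hPF' hG₁F, hP2, hsq1, hcen, hsq, hcom,
    fun U hU hAU => hirr U hU (le_sup_right.trans hAU), ⟨b, hb, hbF⟩⟩

end Cfsg.Agent.H49.Gr
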