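import Mathlib
import Cfsg.Agent.H49.Gr.Conf2
import Cfsg.Agent.HH.GroupC

set_option autoImplicit false
set_option linter.style.haveILetI false
set_option linter.unusedSectionVars false
set_option linter.unusedVariables false

/-!
Gross's bound for the 2-length.
-/

namespace Cfsg.Agent.H49.Gr

open Module Subgroup
open scoped BigOperators commutatorElement TensorProduct

universe u

variable {G : Type u} [Group G] [Finite G]

theorem exists_cfg {n : ℕ} (hn : 1 ≤ n) (hsol : Group.IsSolvable G) (hO : pPrimeCore 2 G = ⊥)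
    (hexp : HH.PExp 2 n G) {x : G} (hx : ∃ k, x ^ 2 ^ k = 1) (hy : x ^ 2 ^ (n - 1) ∉ pCore 2 G) :
    ∃ (x' : G) (A B F : Subgroup G), Cfg x' n A B F := by
  classical
  haveI : Fact (Nat.Prime 2) := ⟨Nat.prime_two⟩
  haveI hP₀n : (pCore 2 G).Normal := Solv.pCore_normal 2
  set P₀ := pCore 2 G with hP₀
  have hP₀2 : IsPGroup 2 P₀ := Solv.pCore_isPGroup 2
  have hxn : x ^ 2 ^ n = 1 := hexp x hx
  set π := QuotientGroup.mk' P₀ with hπ
  have hπs : Function.Surjective π := QuotientGroup.mk'_surjective _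
  have hπ1 : ∀ g : G, π g = 1 ↔ g ∈ P₀ := fun g => QuotientGroup.eq_one_iff g
  haveI hsol' : Group.IsSolvable (G ⧸ P₀) := by
    haveI := hsol
    infer_instance
  set y := x ^ 2 ^ (n - 1) with hydef
  have hyy : y ^ 2 = 1 := by
    rw [hydef, ← pow_mul, ← pow_succ, show n - 1 + 1 = n by omega, hxn]
  obtain ⟨s, hs, hs2, hsnt⟩ := exists_pCore_nt (H := G ⧸ P₀) hsol' (Solv.pCore_quotient_pCore 2)
    (B := zpowers (π y)) (by
      rintro ⟨g, hg⟩
      obtain ⟨i, rfl⟩ := mem_zpowers_iff.1 hg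
      refine ⟨1, Subtype.ext ?_⟩
      change ((π y) ^ i) ^ 2 ^ 1 = 1
      rw [← zpow_natCast, ← zpow_mul, mul_comm, zpow_mul, zpow_natCast, pow_one, ← map_pow, hyy, map_one, one_zpow])
    (by
      rw [Ne, zpowers_eq_bot, hπ1]; exact hy)
  haveI hsn : (pCore s (G ⧸ P₀)).Normal := Solv.pCore_normal s
  obtain ⟨T, hT⟩ := H33.IsSyl.exists (p := s) ((pCore s (G ⧸ P₀)).comap π)
  have hkc : (Nat.card π.ker).Coprime s := by
    rw [hπ, QuotientGroup.ker_mk']
    obtain ⟨k, hk⟩ := IsPGroup.iff_card.1 hP₀2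
    rw [hk]
    exact Nat.Coprime.pow_left _ ((Nat.coprime_primes Nat.prime_two hs.out).2 hs2.symm)
  have hmap := syl_cover π hπs hkc (Solv.pCore_isPGroup s) hT
  obtain ⟨l, hl, hlx⟩ := hT.frattini (y := x) (by
    rw [normalizer_eq_top]; exact mem_top _)
  obtain ⟨t, ht, htl⟩ : ∃ t ∈ T, π t = π l := by
    have h1 : π l ∈ T.map π := by rw [hmap]; exact hl
    exact h1
  set x₁ := t⁻¹ * (l * x) with hx₁
  have hx₁T : x₁ ∈ normalizer (T : Set G) := mul_mem (le_normalizer (T.inv_mem ht)) hlx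
  have hπx : π x₁ = π x := by
    rw [hx₁, map_mul, map_mul, map_inv, htl, inv_mul_cancel_left]
  have hx₁n : x₁ ^ 2 ^ n = 1 := by
    apply hexp
    have h1 : x₁ ^ 2 ^ n ∈ P₀ := by
      rw [← hπ1, map_pow, hπx, ← map_pow, hxn, map_one]
    obtain ⟨m, hm⟩ := hP₀2 ⟨_, h1⟩
    have h2 := congrArg Subtype.val hm
    change (x₁ ^ 2 ^ n) ^ 2 ^ m = 1 at h2
    exact ⟨n + m, by rw [pow_add, pow_mul, h2]⟩
  have hnorm : ∀ L : Subgroup G, L ≤ normalizer (P₀ : Set G) := by
    intro L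
    rw [normalizer_eq_top]; exact le_top
  refine ⟨x₁, exists_cfg_of (P₀ := P₀) (L := T) hn hsol hP₀2 (hnorm T) (hnorm ⊤ (mem_top _)) ?_ hx₁T hx₁n ?_⟩
  · obtain ⟨k, hk⟩ := IsPGroup.iff_card.1 hT.2.1
    rw [hk]
    exact Nat.Coprime.pow_left _ ((Nat.coprime_primes hs.out Nat.prime_two).2 hs2)
  · intro h0
    apply hsnt
    rw [commutator_comm, commutator_eq_bot_iff_le_centralizer] at h0
    have h1 : ⁅T, zpowers (x₁ ^ 2 ^ (n - 1))⁆ ≤ P₀ :=
      h0.trans (H76.centralizer_pCore_le (ZJ.isPSolvable_of_isSolvable 2 hsol) hO)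
    have h2 : (⁅T, zpowers (x₁ ^ 2 ^ (n - 1))⁆).map π = ⊥ := by
      rw [eq_bot_iff]
      rintro _ ⟨g, hg, rfl⟩
      exact (hπ1 g).2 (h1 hg)
    rw [map_commutator, hmap, MonoidHom.map_zpowers, map_pow, hπx, ← map_pow] at h2
    exact h2

/-- two steps down -/
theorem two_steps {n : ℕ} (hn : 1 ≤ n) (hsol : Group.IsSolvable G) (hO : pPrimeCore 2 G = ⊥)
    (hexp : HH.PExp 2 n G) [(pCore 2 G).Normal] [(pPrimeCore 2 (G ⧸ pCore 2 G)).Normal] :
    ∀ x : (G ⧸ pCore 2 G) ⧸ pPrimeCore 2 (G ⧸ pCore 2 G), (∃ k, x ^ 2 ^ k = 1) →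
      x ^ 2 ^ (n - 1) ∈ pCore 2 ((G ⧸ pCore 2 G) ⧸ pPrimeCore 2 (G ⧸ pCore 2 G)) := by
  classical
  haveI : Fact (Nat.Prime 2) := ⟨Nat.prime_two⟩
  intro x hx
  by_contra hy
  set H := G ⧸ pCore 2 G with hH
  haveI hsolH : Group.IsSolvable H := by
    haveI := hsol
    infer_instance
  haveI hsolH' : Group.IsSolvable (H ⧸ pPrimeCore 2 H) := inferInstance
  have hexpH : HH.PExp 2 n H := hexp.quotient _
  have hexpH' : HH.PExp 2 n (H ⧸ pPrimeCore 2 H) := hexpH.quotient _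
  obtain ⟨x', A', B', F', C'⟩ := exists_cfg hn hsolH' HH.pPrimeCore_quotient_eq_bot hexpH' hx hy
  obtain ⟨x₁, A, B, F₁, C⟩ := C'.lift (QuotientGroup.mk' (pPrimeCore 2 H)) (QuotientGroup.mk'_surjective _) (by
    rw [QuotientGroup.ker_mk']; exact Solv.pPrimeCore_card_coprime 2)
  -- the representation
  obtain ⟨V, _, _, _, ⟨F⟩⟩ := HH.exists_fmod (ZJ.isPSolvable_of_isSolvable 2 hsol) hO
  haveI : FiniteDimensional (ZMod 2) V := Module.Finite.of_finite
  let ρ₀ : Representation (ZMod 2) H V := QuotientGroup.lift (pCore 2 G) F.ρ (fun g hg => (F.faithful g).2 hg)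
  have hρ₀ : ∀ g : G, ρ₀ (QuotientGroup.mk' _ g) = F.ρ g := fun g => rfl
  have hinj₀ : Function.Injective ρ₀ := by
    intro a b hab
    have h1 : ρ₀ (a⁻¹ * b) = 1 := by
      rw [map_mul, ← hab, ← map_mul, inv_mul_cancel, map_one]
    obtain ⟨g, hg⟩ := QuotientGroup.mk'_surjective (pCore 2 G) (a⁻¹ * b)
    rw [← hg, hρ₀, F.faithful] at h1
    have h2 : a⁻¹ * b = 1 := by
      rw [← hg]; exact (QuotientGroup.eq_one_iff g).2 h1
    exact inv_mul_eq_one.1 h2
  have hP : IsPGroup 2 (pCore 2 G) := Solv.pCore_isPGroup 2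
  have hnil₀ : (ρ₀ x₁ - 1) ^ (2 ^ n - 1) = 0 := by
    obtain ⟨k, hk⟩ := C.x2
    obtain ⟨g, hg, l, hl⟩ := HH.exists_lift_pelt (QuotientGroup.mk' (pCore 2 G)) (QuotientGroup.mk'_surjective _) (p := 2)
      x₁ hk
    by_contra hne
    rw [← hg, hρ₀] at hne
    have hgn : g ^ 2 ^ n = 1 := hexp g ⟨l, hl⟩
    obtain ⟨v, hv, hvx⟩ := F.exists_pow_ne hne hgn
    apply hvx
    apply hexp
    have h2 : (v * g) ^ 2 ^ n ∈ pCore 2 G := by
      rw [← QuotientGroup.eq_one_iff, QuotientGroup.mk_pow, QuotientGroup.mk_mul,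
        (QuotientGroup.eq_one_iff v).2 hv, one_mul, ← QuotientGroup.mk_pow, hgn, QuotientGroup.mk_one]
    obtain ⟨j, hj⟩ := hP ⟨_, h2⟩
    have h3 := congrArg Subtype.val hj
    change ((v * g) ^ 2 ^ n) ^ 2 ^ j = 1 at h3
    exact ⟨n + j, by rw [pow_add, pow_mul, h3]⟩
  haveI : CharP (AlgebraicClosure (ZMod 2)) 2 :=
    charP_of_injective_algebraMap (algebraMap (ZMod 2) (AlgebraicClosure (ZMod 2))).injective 2
  refine no_cfg (ρ := HH.bc (ZMod 2) ρ₀) hsolH (Solv.pCore_quotient_pCore 2) C hexpH ?_ (HH.bc_injective _ _ hinj₀)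
  rw [HH.bc_apply]
  have h1 := congrArg (Module.End.baseChangeHom (ZMod 2) (AlgebraicClosure (ZMod 2)) V) hnil₀
  rw [map_pow, map_sub, map_one, map_zero] at h1
  exact h1

/-- **Gross's bound** -/
theorem gross : ∀ (n : ℕ) (G : Type u) [Group G] [Finite G], Group.IsSolvable G → HH.PExp 2 (n + 1) G →
    PLengthLE 2 (2 * n + 1) G := by
  haveI : Fact (Nat.Prime 2) := ⟨Nat.prime_two⟩
  intro n
  induction n with
  | zero =>
    intro G _ _ hG hexp
    haveI : (pPrimeCore 2 G).Normal := (Solv.coprime_card_sSup 2 _ (fun _ h => h)).1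
    apply H63.pLengthLE_of_quotient_coprime (pPrimeCore 2 G) (Solv.pPrimeCore_card_coprime 2)
    set G₁ := G ⧸ pPrimeCore 2 G with hG₁
    have hexp1 : HH.PExp 2 1 G₁ := hexp.quotient _
    have hG1 : Group.IsSolvable G₁ := by
      haveI := hG
      infer_instance
    have hcore : pPrimeCore 2 G₁ = ⊥ := HH.pPrimeCore_quotient_eq_bot
    haveI : (pCore 2 G₁).Normal := Solv.pCore_normal 2
    have hP : IsPGroup 2 (pCore 2 G₁) := Solv.pCore_isPGroup 2
    have key : PLengthLE 2 (0 + 1) G₁ := by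
      apply H63.pLengthLE_of_quotient_pgroup (pCore 2 G₁) hP
      rw [H63.pLengthLE_zero_iff, Nat.coprime_comm, Nat.Prime.coprime_iff_not_dvd Nat.prime_two]
      intro hdvd
      obtain ⟨z, hz⟩ := exists_prime_orderOf_dvd_card' 2 hdvd
      obtain ⟨x, hxz, l, hl⟩ := HH.exists_lift_pelt (QuotientGroup.mk' (pCore 2 G₁))
        (QuotientGroup.mk'_surjective _) (p := 2) z (k := 1) (by rw [pow_one]; exact orderOf_dvd_iff_pow_eq_one.1 hz.dvd)
      have hxx : x ^ 2 ^ 1 = 1 := hexp1 x ⟨l, hl⟩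
      have hxc : x ∈ centralizer (pCore 2 G₁ : Set G₁) := by
        rw [mem_centralizer_iff]
        intro b hb
        have hbb : b ^ 2 ^ 1 = 1 := by
          obtain ⟨k, hk⟩ := hP ⟨b, hb⟩
          exact hexp1 b ⟨k, congrArg Subtype.val hk⟩
        have hxb : (b * x) ^ 2 ^ 1 = 1 := by
          apply hexp1
          have h2 : (b * x) ^ 2 ^ 1 ∈ pCore 2 G₁ := by
            rw [← QuotientGroup.eq_one_iff, QuotientGroup.mk_pow, QuotientGroup.mk_mul,
              (QuotientGroup.eq_one_iff b).2 hb, one_mul, ← QuotientGroup.mk_pow, hxx, QuotientGroup.mk_one]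
          obtain ⟨j, hj⟩ := hP ⟨_, h2⟩
          have h3 := congrArg Subtype.val hj
          change ((b * x) ^ 2 ^ 1) ^ 2 ^ j = 1 at h3
          exact ⟨1 + j, by rw [pow_add, pow_mul, h3]⟩
        rw [pow_one, pow_two] at hbb hxb hxx
        have hb1 : b⁻¹ = b := inv_eq_of_mul_eq_one_right hbb
        have hx1 : x⁻¹ = x := inv_eq_of_mul_eq_one_right hxx
        have hbx1 : (b * x)⁻¹ = b * x := inv_eq_of_mul_eq_one_right hxb
        rw [mul_inv_rev, hb1, hx1] at hbx1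
        exact hbx1.symm
      have h1 := H76.centralizer_pCore_le (ZJ.isPSolvable_of_isSolvable 2 hG1) hcore hxc
      have h2 : z = 1 := by
        rw [← hxz]; exact (QuotientGroup.eq_one_iff x).2 h1
      rw [h2, orderOf_one] at hz
      omega
    exact key
  | succ n ih =>
    intro G _ _ hG hexp
    haveI : (pPrimeCore 2 G).Normal := (Solv.coprime_card_sSup 2 _ (fun _ h => h)).1
    apply H63.pLengthLE_of_quotient_coprime (pPrimeCore 2 G) (Solv.pPrimeCore_card_coprime 2)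
    set G₁ := G ⧸ pPrimeCore 2 G with hG₁
    have hexp1 : HH.PExp 2 (n + 1 + 1) G₁ := hexp.quotient _
    have hG1 : Group.IsSolvable G₁ := by
      haveI := hG
      infer_instance
    have hcore : pPrimeCore 2 G₁ = ⊥ := HH.pPrimeCore_quotient_eq_bot
    haveI : (pCore 2 G₁).Normal := Solv.pCore_normal 2
    have hP : IsPGroup 2 (pCore 2 G₁) := Solv.pCore_isPGroup 2
    rw [show 2 * (n + 1) + 1 = (2 * n + 1 + 1) + 1 by ring]
    apply H63.pLengthLE_of_quotient_pgroup (pCore 2 G₁) hP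
    set H := G₁ ⧸ pCore 2 G₁ with hH
    haveI hHn : (pPrimeCore 2 H).Normal := (Solv.coprime_card_sSup 2 _ (fun _ h => h)).1
    apply H63.pLengthLE_of_quotient_coprime (pPrimeCore 2 H) (Solv.pPrimeCore_card_coprime 2)
    have hstep := two_steps (n := n + 1 + 1) (by omega) hG1 hcore hexp1
    set H' := H ⧸ pPrimeCore 2 H with hH'
    haveI : (pCore 2 H').Normal := Solv.pCore_normal 2
    apply H63.pLengthLE_of_quotient_pgroup (pCore 2 H') (Solv.pCore_isPGroup 2)
    have hsolH : Group.IsSolvable H := by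
      haveI := hG1
      infer_instance
    have hsolH' : Group.IsSolvable H' := by
      haveI := hsolH
      infer_instance
    apply ih (H' ⧸ pCore 2 H') (by haveI := hsolH'; infer_instance)
    rintro z ⟨k, hk⟩
    obtain ⟨x, rfl, l, hl⟩ := HH.exists_lift_pelt (QuotientGroup.mk' (pCore 2 H'))
      (QuotientGroup.mk'_surjective _) (p := 2) z hk
    rw [← map_pow]
    exact (QuotientGroup.eq_one_iff _).2 (hstep x ⟨l, hl⟩)

end Cfsg.Agent.H49.Gr
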